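import Cfsg.Agent.B.Cov2
import Cfsg.Agent.B.Rank
import Cfsg.Agent.H2.PTransfer

/-!
# Alternating sums over normal chains of `p`-subgroups (Knörr–Robinson).
-/

set_option autoImplicit false
set_option linter.unusedSectionVars false

namespace Cfsg.Agent.B

open MonoidAlgebra Subgroup Cfsg.Agent.H3 Cfsg.Agent.H2

variable {G : Type*} [Group G] [Finite G] {p : ℕ} [hp : Fact p.Prime]

/-- normal closure of `A` under `T` -/
def ncl (A T : Subgroup G) : Subgroup G := sInf {R | A ≤ R ∧ T ≤ normalizer (R : Set G)}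

theorem le_ncl (A T : Subgroup G) : A ≤ ncl A T := le_sInf fun _ h => h.1

theorem ncl_le {A T R : Subgroup G} (h1 : A ≤ R) (h2 : T ≤ normalizer (R : Set G)) : ncl A T ≤ R := sInf_le ⟨h1, h2⟩

theorem le_normalizer_ncl (A T : Subgroup G) : T ≤ normalizer (ncl A T : Set G) := fun _ ht =>
  mem_normalizer_of_cj_le (le_sInf fun _ h => (cj_mono _ (ncl_le h.1 h.2)).trans (cj_eq_of_mem_normalizer (h.2 ht)).le)

theorem mem_normalizer_ncl {A T : Subgroup G} {g : G} (h1 : g ∈ normalizer (A : Set G)) (h2 : g ∈ normalizer (T : Set G)) :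
    g ∈ normalizer (ncl A T : Set G) :=
  mem_normalizer_of_cj_le (cj_le_iff.2 (ncl_le
    ((cj_eq_of_mem_normalizer (inv_mem h1)).ge.trans (cj_mono _ (le_ncl A T))) (by
      rw [← cj_normalizer]
      exact (cj_eq_of_mem_normalizer (inv_mem h2)).ge.trans (cj_mono _ (le_normalizer_ncl A T)))))

theorem eq_of_ncl {A T : Subgroup G} (hT : IsPGroup p T) (h : A ≤ T) (h1 : T ≤ ncl A T) : A = T := by
  by_contra hne
  obtain ⟨R, h2, -, h3, h4⟩ := exists_max_of_lt hT (lt_of_le_of_ne h hne)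
  rw [relIndex_eq_one.2 (h1.trans (ncl_le h2 h3))] at h4
  exact hp.out.one_lt.ne h4

variable (p) in
/-- normal chains, possibly empty -/
structure NC (s : Finset (Subgroup G)) : Prop where
  ch : ∀ Q ∈ s, ∀ R ∈ s, Q ≤ R ∨ R ≤ Q
  pg : ∀ Q ∈ s, Q ≠ ⊥ ∧ IsPGroup p Q
  nm : ∀ Q ∈ s, ∀ R ∈ s, R ≤ normalizer (Q : Set G)

/-- stabilizer of a chain -/
abbrev NN (s : Finset (Subgroup G)) : Subgroup G := ⨅ Q ∈ s, normalizer (Q : Set G)

theorem mem_NN {s : Finset (Subgroup G)} {g : G} : g ∈ NN s ↔ ∀ Q ∈ s, g ∈ normalizer (Q : Set G) := by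
  simp [NN, mem_iInf]

theorem NC.mono {s t : Finset (Subgroup G)} (h : NC p s) (hs : t ⊆ s) : NC p t :=
  ⟨fun Q h1 R h2 => h.ch Q (hs h1) R (hs h2), fun Q h1 => h.pg Q (hs h1), fun Q h1 R h2 => h.nm Q (hs h1) R (hs h2)⟩

theorem sup_mem_of_chain {s : Finset (Subgroup G)} (h : ∀ Q ∈ s, ∀ R ∈ s, Q ≤ R ∨ R ≤ Q) (hs : s.Nonempty) :
    s.sup id ∈ s := by
  obtain ⟨T, hT, h1⟩ := s.exists_maximal hs
  have : s.sup id = T := le_antisymm (Finset.sup_le fun Q hQ => (h Q hQ T hT).elim id (h1 hQ))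
    (Finset.le_sup (f := id) hT)
  rwa [this]

theorem NC.sup_pg {s : Finset (Subgroup G)} (h : NC p s) : IsPGroup p (s.sup id : Subgroup G) := by
  rcases s.eq_empty_or_nonempty with rfl | hs
  · exact IsPGroup.of_bot
  · exact (h.pg _ (sup_mem_of_chain h.ch hs)).2

theorem mem_normalizer_sup' {s : Finset (Subgroup G)} {g : G} (h : g ∈ NN s) : g ∈ normalizer ((s.sup id : Subgroup G) : Set G) :=
  mem_normalizer_of_cj_le (cj_le_iff.2 (Finset.sup_le fun Q hQ =>
    (cj_eq_of_mem_normalizer (inv_mem (mem_NN.1 h Q hQ))).ge.trans (cj_mono _ (Finset.le_sup (f := id) hQ))))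

theorem mem_normalizer_sup_z {A : Subgroup G} {g x : G} (h : g ∈ normalizer (A : Set G)) (h1 : g ∈ centralizer {x}) :
    g ∈ normalizer ((A ⊔ zpowers x : Subgroup G) : Set G) := by
  rw [mem_normalizer_iff_cj, cj_sup, cj_eq_of_mem_normalizer h, cj_zpowers, mem_centralizer_singleton_iff.1 h1,
    mul_inv_cancel_right]

open Classical in
/-- the subgroup to toggle -/
noncomputable def tg (x : G) (s : Finset (Subgroup G)) : Subgroup G :=
  ncl ((s.filter (x ∉ ·)).sup id ⊔ zpowers x) (s.sup id ⊔ zpowers x)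

section
variable {x : G} {s : Finset (Subgroup G)}

theorem mem_tg : x ∈ tg x s := le_ncl _ _ (mem_sup_right (mem_zpowers x))

theorem tg_le : tg x s ≤ s.sup id ⊔ zpowers x :=
  ncl_le (sup_le_sup_right (Finset.sup_mono (by classical exact Finset.filter_subset _ _)) _) le_normalizer

theorem NC.pg_sup (h : NC p s) (hx : PElt p x) (h1 : x ∈ NN s) : IsPGroup p (s.sup id ⊔ zpowers x : Subgroup G) :=
  IsPGroup.to_sup_of_normal_left' h.sup_pg hx.isPGroup (zpowers_le.2 (mem_normalizer_sup' h1))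

theorem NC.sup_le (h : NC p s) (h1 : x ∈ NN s) {Q : Subgroup G} (hQ : Q ∈ s) :
    s.sup id ⊔ zpowers x ≤ normalizer (Q : Set G) :=
  _root_.sup_le (Finset.sup_le (h.nm Q hQ)) (zpowers_le.2 (mem_NN.1 h1 Q hQ))

theorem NC.tg_cases (h : NC p s) (h1 : x ∈ NN s) {Q : Subgroup G} (hQ : Q ∈ s) : Q ≤ tg x s ∨ tg x s ≤ Q := by
  classical
  by_cases hx : x ∈ Q
  · refine Or.inr (ncl_le (_root_.sup_le (Finset.sup_le fun R hR => ?_) (zpowers_le.2 hx)) (h.sup_le h1 hQ))
    rw [Finset.mem_filter] at hR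
    exact (h.ch R hR.1 Q hQ).resolve_right fun h2 => hR.2 (h2 hx)
  · exact Or.inl ((le_sup_of_le_left (Finset.le_sup (f := id) (by simp [hQ, hx]))).trans (le_ncl _ _))

theorem inf_le_tg : NN s ⊓ centralizer {x} ≤ normalizer (tg x s : Set G) := fun _ hg =>
  mem_normalizer_ncl (mem_normalizer_sup_z (mem_normalizer_sup' (mem_NN.2 fun Q hQ => mem_NN.1 hg.1 Q
    (by classical exact Finset.filter_subset _ _ hQ))) hg.2) (mem_normalizer_sup_z (mem_normalizer_sup' hg.1) hg.2)

theorem tg_congr {t : Finset (Subgroup G)} (h1 : ∀ Q, x ∉ Q → (Q ∈ s ↔ Q ∈ t))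
    (h2 : s.sup id ⊔ zpowers x = t.sup id ⊔ zpowers x) : tg x s = tg x t := by
  classical
  unfold tg
  rw [h2]
  congr 3
  ext Q
  simp only [Finset.mem_filter]
  exact and_congr_left (h1 Q)

open Classical in
theorem sup_insert_tg : (insert (tg x s) s).sup id ⊔ zpowers x = s.sup id ⊔ zpowers x := by
  rw [Finset.sup_insert, sup_assoc, sup_eq_right]; exact tg_le

open Classical in
theorem NC.insert_tg (h : NC p s) (hx : PElt p x) (hx1 : x ≠ 1) (h1 : x ∈ NN s) : NC p (insert (tg x s) s) := by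
  refine ⟨?_, ?_, ?_⟩ <;> simp only [Finset.mem_insert, forall_eq_or_imp]
  · exact ⟨⟨by simp, fun Q hQ => (h.tg_cases h1 hQ).symm⟩, fun Q hQ => ⟨h.tg_cases h1 hQ, h.ch Q hQ⟩⟩
  · exact ⟨⟨fun h2 => hx1 (mem_bot.1 (h2 ▸ mem_tg)), (h.pg_sup hx h1).to_le tg_le⟩, h.pg⟩
  · exact ⟨⟨le_normalizer, fun Q hQ => (le_sup_of_le_left (Finset.le_sup (f := id) hQ)).trans (le_normalizer_ncl _ _)⟩,
      fun Q hQ => ⟨tg_le.trans (h.sup_le h1 hQ), h.nm Q hQ⟩⟩

open Classical in
theorem NC.sup_erase_tg (h : NC p s) (hx : PElt p x) (h1 : x ∈ NN s) :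
    (s.erase (tg x s)).sup id ⊔ zpowers x = s.sup id ⊔ zpowers x := by
  refine le_antisymm (sup_le_sup_right (Finset.sup_mono (Finset.erase_subset _ _)) _) ?_
  by_cases h2 : ∀ Q ∈ s, Q ≤ tg x s
  · rw [← eq_of_ncl (h.pg_sup hx h1) (sup_le_sup_right (Finset.sup_mono (Finset.filter_subset (x ∉ ·) _)) _)
      (_root_.sup_le (Finset.sup_le h2) (zpowers_le.2 mem_tg))]
    refine sup_le_sup_right (Finset.sup_mono fun Q hQ => ?_) _
    rw [Finset.mem_filter] at hQ
    exact Finset.mem_erase.2 ⟨fun h3 => hQ.2 (h3 ▸ mem_tg), hQ.1⟩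
  · push Not at h2
    obtain ⟨R, hR, h2⟩ := h2
    refine sup_le_sup_right (Finset.sup_le fun Q hQ => ?_) _
    by_cases h3 : Q = tg x s
    · exact (h3.le.trans ((h.tg_cases h1 hR).resolve_left h2)).trans
        (Finset.le_sup (f := id) (Finset.mem_erase.2 ⟨fun h4 => h2 h4.le, hR⟩))
    · exact Finset.le_sup (f := id) (Finset.mem_erase.2 ⟨h3, hQ⟩)

open Classical in
theorem NN_insert_tg : NN (insert (tg x s) s) ⊓ centralizer {x} = NN s ⊓ centralizer {x} := by
  rw [NN, Finset.iInf_insert, inf_assoc, inf_eq_right]; exact inf_le_tg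

end

open Classical in
theorem sum_chain [Fintype (Subgroup G)] {x : G} (hx : PElt p x) (hx1 : x ≠ 1) (φ : Subgroup G → Subgroup G → ℤ) :
    ∑ s : Finset (Subgroup G) with NC p s ∧ x ∈ NN s,
      (-1) ^ s.card * φ (NN s ⊓ centralizer {x}) (s.sup id ⊔ zpowers x) = 0 := by
  have key : ∀ s : Finset (Subgroup G), NC p s → x ∈ NN s → tg x (s.erase (tg x s)) = tg x s := fun s h h1 =>
    tg_congr (fun Q hQ => by simp [show Q ≠ tg x s from fun h3 => hQ (h3 ▸ mem_tg)]) (h.sup_erase_tg hx h1)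
  have key2 : ∀ s : Finset (Subgroup G), tg x (insert (tg x s) s) = tg x s := fun s =>
    tg_congr (fun Q hQ => by simp [show Q ≠ tg x s from fun h3 => hQ (h3 ▸ mem_tg)]) sup_insert_tg
  refine Finset.sum_involution (fun s _ => if tg x s ∈ s then s.erase (tg x s) else insert (tg x s) s) ?_ ?_ ?_ ?_ <;>
    simp only [Finset.mem_filter, Finset.mem_univ, true_and] <;> rintro s ⟨h, h1⟩
  · split_ifs with h2
    · have h3 := NN_insert_tg (x := x) (s := s.erase (tg x s))
      rw [key s h h1, Finset.insert_erase h2] at h3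
      rw [h.sup_erase_tg hx h1, ← h3, ← Finset.card_erase_add_one h2]; ring
    · rw [sup_insert_tg, NN_insert_tg, Finset.card_insert_of_notMem h2]; ring
  · intro _
    split_ifs with h2
    · simpa using h2
    · simpa using h2
  · split_ifs with h2
    · exact ⟨h.mono (Finset.erase_subset _ _), mem_NN.2 fun Q hQ => mem_NN.1 h1 Q (Finset.erase_subset _ _ hQ)⟩
    · exact ⟨h.insert_tg hx hx1 h1, (NN_insert_tg.ge ⟨h1, self_mem_centralizer x⟩).1⟩
  · by_cases h2 : tg x s ∈ s
    · simp only [h2, if_true, key s h h1, Finset.notMem_erase, if_false, Finset.insert_erase h2]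
    · simp only [h2, if_false, key2, Finset.mem_insert_self, if_true, Finset.erase_insert h2]

variable {M : Ideal AlgInt} [hM : PMod p M] {X : Type*} [Group X] [Finite X]

/-- ambient rank -/
noncomputable def lr (K : Subgroup G) (a : MonoidAlgebra (F M) G) : ℕ :=
  blockRank p {ξ : IrrCharacter K | lam M (ξ : K → ℂ) (resA K a) = 1}

theorem lr_push {φ : X →* G} (hφ : Function.Injective φ) {K : Subgroup X} {a : MonoidAlgebra (F M) X}
    (ha : a ∈ fix (F M) K) : lr (K.map φ) (push φ a) = lr K a := by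
  unfold lr
  rw [← blockRank_preimage_cmp (K.equivMapOfInjective φ hφ)]
  congr 1
  ext ξ
  simp only [Set.mem_setOf_eq, Set.mem_preimage, lam_cmp _ _ (resA_mem_cent le_rfl ha)]
  rw [show push (K.equivMapOfInjective φ hφ).toMonoidHom (resA K a) = resA _ (push φ a) from extA fun g => by
    obtain ⟨g, rfl⟩ := (K.equivMapOfInjective φ hφ).surjective g
    rw [coeff_push_equiv, MulEquiv.symm_apply_apply, coeff_resA, coeff_resA]
    exact (coeff_push_of_injective hφ _ _).symm]

theorem lr_br {K : Subgroup G} {x : G} (h : K ≤ centralizer {x}) (T : Subgroup G) (a : MonoidAlgebra (F M) G) :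
    lr K (Br (T ⊔ zpowers x) a) = lr K (Br T a) := by
  unfold lr
  rw [sup_comm, br_sup, resA_trunc_of_le (by rwa [centralizer_zpowers])]

theorem Closed.lr_top {S : Set (IrrCharacter G)} (hS : Closed M S) : lr ⊤ (eB M S) = blockRank p S := by
  unfold lr
  rw [← blockRank_preimage_cmp topEquiv.symm S]
  congr 1
  ext ξ
  rw [show resA ⊤ (eB M S) = eB M (cmp topEquiv.symm ⁻¹' S) from
    extA fun g => (coeff_eB_preimage_cmp topEquiv.symm S g).symm, Set.mem_setOf_eq, (hS.preimage_cmp _).lam_eB]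
  simp

open Classical in
theorem Closed.card_sub_rank [Fintype G] {S : Set (IrrCharacter G)} (hS : Closed M S) :
    (Nat.card G : ℤ) * (Nat.card S - blockRank p S) = ∑ x : G, if PElt p x ∧ x ≠ 1 then
      (Nat.card (centralizer ({x} : Set G)) * lr (centralizer {x}) (eB M S) : ℤ) else 0 := by
  have h := congrArg (Nat.cast (R := ℤ)) hS.card_mul_card
  push_cast at h
  have h1 : centralizer ({1} : Set G) = ⊤ := by simp
  rw [mul_sub, h, ← Finset.add_sum_erase _ _ (Finset.mem_univ 1), ← Finset.add_sum_erase _ _ (Finset.mem_univ 1),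
    if_pos pElt_one, if_neg (by simp), show blockRank p (roots M (centralizer {1}) S) = lr (centralizer {1}) (eB M S) from rfl,
    h1, hS.lr_top, card_top, zero_add, add_sub_cancel_left]
  refine Finset.sum_congr rfl fun x hx => ?_
  simp only [(Finset.mem_erase.1 hx).1, ne_eq, not_false_eq_true, and_true]
  rfl

theorem Closed.iB_roots {B : Set (IrrCharacter G)} (hB : Closed M B) {T H : Subgroup G} (hT : IsPGroup p T) (h1 : T ≤ H)
    (h2 : centralizer (T : Set G) ≤ H) (h3 : H ≤ normalizer (T : Set G)) : iB M H (roots M H B) = Br T (eB M B) := by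
  have he := cent_le_fix H (eB_mem (M := M) B)
  have he' := cent_le_fix T (eB_mem (M := M) B)
  have h4 := (idem_eq_eB (resA_br_mem h3 he) (by rw [← resA_br_mul hT h2 he' he', hB.eB_mul_self])).2
  simp only [lam_resA_br hT h1 h3 _ he] at h4
  rw [iB, roots, ← h4, incA_resA_of_SA (SA_mono h2 (trunc_mem_SA _ _))]

open Classical in
theorem Closed.card_sub_rank' [Fintype G] {B : Set (IrrCharacter G)} (hB : Closed M B) {T H : Subgroup G}
    (hT : IsPGroup p T) (h1 : T ≤ H) (h2 : centralizer (T : Set G) ≤ H) (h3 : H ≤ normalizer (T : Set G)) :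
    (Nat.card H : ℤ) * (Nat.card (roots M H B) - blockRank p (roots M H B)) = ∑ x : G, if PElt p x ∧ x ≠ 1 then
      (if x ∈ H then (Nat.card ↥(H ⊓ centralizer {x}) *
        lr (H ⊓ centralizer {x}) (Br (T ⊔ zpowers x) (eB M B)) : ℤ) else 0) else 0 := by
  have := Fintype.ofFinite H
  rw [(closed_roots H B).card_sub_rank, sum_subgroup_eq H _ fun g hg => by simp [hg]]
  refine Finset.sum_congr rfl fun x _ => ?_
  have h4 : (centralizer {x}).map H.subtype = H ⊓ centralizer {(x : G)} := by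
    rw [centralizer_coe_eq, subgroupOf_map_subtype, inf_comm]
  simp only [pElt_coe, x.2, if_true, ne_eq, OneMemClass.coe_eq_one]
  rw [lr_br inf_le_right, ← hB.iB_roots hT h1 h2 h3, ← h4, lr_push H.subtype_injective (cent_le_fix _ (eB_mem _)),
    card_map_of_injective H.subtype_injective]
  congr

end Cfsg.Agent.B
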