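import Cfsg.Agent.B.Cyc4

/-!
# Blocks of defect one: Galois action.
-/

set_option autoImplicit false
set_option linter.unusedSectionVars false

namespace Cfsg.Agent.B

open MonoidAlgebra Subgroup Cfsg.Agent.H3 Cfsg.Agent.H2
open scoped ComplexConjugate

variable {p : ℕ} [hp : Fact p.Prime] {M : Ideal AlgInt} [hM : PMod p M]
variable {G : Type*} [Group G] [Finite G]

theorem Closed.mem_of_reg_eq {B : Set (IrrCharacter G)} (hB : Closed M B) {χ ψ : IrrCharacter G} (hχ : χ ∈ B)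
    (h : reg p ψ.1 = reg p χ.1) : ψ ∈ B := by_contra fun h1 => by
  have h2 := hB.blockPart_reg_eq ψ.1
  rw [blockPart_of_not_mem h1, reg_zero, h, hB.blockPart_reg_eq, blockPart_of_mem hχ] at h2
  have h3 := congrFun h2 1
  rw [reg_one', ← χ.2.cast_charDegree] at h3
  exact χ.2.charDegree_pos.ne' (Nat.cast_eq_zero.1 h3)

/-- Galois conjugate of an irreducible character -/
def gal (σ : ℂ ≃+* ℂ) (χ : IrrCharacter G) : IrrCharacter G := ⟨fun g => σ (χ.1 g), χ.2.galois (σ : ℂ →+* ℂ)⟩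

theorem gal_apply (σ : ℂ ≃+* ℂ) (χ : IrrCharacter G) (g : G) : (gal σ χ).1 g = σ (χ.1 g) := rfl

theorem gal_injective (σ : ℂ ≃+* ℂ) : Function.Injective (gal (G := G) σ) := fun _ _ h =>
  Subtype.ext (funext fun g => σ.injective (congrFun (congrArg Subtype.val h) g))

theorem indFun_gal [Fintype G] (σ : ℂ ≃+* ℂ) {C : Subgroup G} (φ : C → ℂ) (x : G) :
    σ (indFun C φ x) = indFun C (fun c => σ (φ c)) x := by
  simp only [indFun_apply', map_mul, map_inv₀, map_natCast, map_sum]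
  refine congrArg _ (Finset.sum_congr rfl fun g _ => ?_)
  by_cases h : g * x * g⁻¹ ∈ C
  · rw [extendByZero_of_mem _ h, extendByZero_of_mem _ h]
  · rw [extendByZero_of_not_mem _ h, extendByZero_of_not_mem _ h, map_zero]

variable (p) in
/-- `σ` fixes the roots of unity of `p'`-order dividing `n` -/
def FixR (n : ℕ) (σ : ℂ ≃+* ℂ) : Prop := ∀ k, k ∣ n → ¬ p ∣ k → ∀ ε : ℂ, ε ^ k = 1 → σ ε = ε

theorem FixR.apply {n : ℕ} {σ : ℂ ≃+* ℂ} (h : FixR p n σ) (hn : Nat.card G ∣ n) {φ : G → ℂ}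
    (hφ : IsGeneralizedCharacter G φ) {x : G} (hx : ¬ p ∣ orderOf x) : σ (φ x) = φ x := by
  simpa using hφ.map_apply_eq_pow (σ : ℂ →+* ℂ) x 1 fun ε hε => by
    simpa using h _ ((orderOf_dvd_natCard x).trans hn) hx ε hε

theorem FixR.reg_eq {n : ℕ} {σ : ℂ ≃+* ℂ} (h : FixR p n σ) (hn : Nat.card G ∣ n) (χ : IrrCharacter G) :
    reg p (gal σ χ).1 = reg p χ.1 := reg_congr fun _ hx => h.apply hn χ.2.isGen hx

theorem FixR.mem {n : ℕ} {σ : ℂ ≃+* ℂ} (h : FixR p n σ) (hn : Nat.card G ∣ n) {B : Set (IrrCharacter G)}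
    (hB : Closed M B) {χ : IrrCharacter G} (hχ : χ ∈ B) : gal σ χ ∈ B := hB.mem_of_reg_eq hχ (h.reg_eq hn χ)

theorem fixR_iff {n : ℕ} (hn : n ≠ 0) {σ : ℂ ≃+* ℂ} : FixR p n σ ↔
    σ (Complex.exp (2 * Real.pi * Complex.I / (n / p ^ n.factorization p : ℕ))) =
      Complex.exp (2 * Real.pi * Complex.I / (n / p ^ n.factorization p : ℕ)) := by
  have h1 := Complex.isPrimitiveRoot_exp _ (Nat.ordCompl_pos p hn).ne'
  refine ⟨fun h => h _ (Nat.ordCompl_dvd n p) (Nat.not_dvd_ordCompl hp.out hn) _ h1.pow_eq_one, fun h k hk hk' ε hε => ?_⟩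
  have := NeZero.mk (Nat.ordCompl_pos p hn).ne'
  obtain ⟨i, -, rfl⟩ := h1.eq_pow_of_pow_eq_one (pow_eq_one_of_dvd' hε (Nat.dvd_ordCompl_of_dvd_not_dvd hk hk'))
  rw [map_pow, h]

theorem exists_fixR {n : ℕ} (hn : n ≠ 0) {ζ ζ' : ℂ} (h1 : ζ ^ p = 1) (h2 : ζ ≠ 1) (h3 : ζ' ^ p = 1) (h4 : ζ' ≠ 1) :
    ∃ σ, FixR p n σ ∧ σ ζ = ζ' := by
  have h5 : IsPrimitiveRoot ζ p := orderOf_eq_prime h1 h2 ▸ IsPrimitiveRoot.orderOf ζ
  obtain ⟨j, hj, rfl⟩ := h5.eq_pow_of_pow_eq_one h3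
  have h6 : p.Coprime (ordCompl[p] n) := Nat.coprime_ordCompl hp.out hn
  obtain ⟨k, h7, h8⟩ := Nat.chineseRemainder h6 j 1
  have h9 : k.Coprime p := by
    rw [Nat.Coprime, h7.gcd_eq]
    exact ((Nat.coprime_of_lt_prime (fun h => h4 (by rw [h, pow_zero])) hj hp.out)).symm
  obtain ⟨σ, hσ⟩ := exists_ringEquiv_pow (mul_ne_zero hp.out.ne_zero (Nat.ordCompl_pos p hn).ne')
    (Nat.Coprime.mul_right h9 (by rw [Nat.Coprime, h8.gcd_eq, Nat.gcd_one_left]))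
  refine ⟨σ, fun l hl hl' ε hε => ?_, ?_⟩
  · have h10 := pow_eq_one_of_dvd' hε (Nat.dvd_ordCompl_of_dvd_not_dvd hl hl')
    rw [hσ ε (pow_eq_one_of_dvd' h10 (dvd_mul_left _ _)), pow_eq_pow_mod _ h10, h8, ← pow_eq_pow_mod _ h10, pow_one]
  · rw [hσ ζ (pow_eq_one_of_dvd' h1 (dvd_mul_right _ _)), pow_eq_pow_mod _ h1, h7, ← pow_eq_pow_mod _ h1]

variable {B : Set (IrrCharacter G)} {P : Subgroup G} {e : MonoidAlgebra (F M) G} {z g : G} {ε : ℕ}

theorem apply_mul_pow {ξ : IrrCharacter (centralizer ({z} : Set G))} (c : centralizer ({z} : Set G)) (i : ℕ) :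
    ξ.1 (c * ⟨z, mem_centralizer_singleton_iff.2 rfl⟩ ^ i) =
      (ξ.1 ⟨z, mem_centralizer_singleton_iff.2 rfl⟩ / ξ.1 1) ^ i * ξ.1 c := by
  induction i with
  | zero => simp
  | succ i ih =>
    rw [pow_succ, ← mul_assoc, apply_mul_of_mem_charCenter ξ.2.apply_one_ne_zero (ξ.2.center_le_charCenter
      (mem_center_iff.2 fun x => Subtype.ext (mem_centralizer_singleton_iff.1 x.2))), ih]
    ring

theorem CS.eq_of_apply (h : CS p B P e z g ε) (hG : ¬ p ^ 2 ∣ Nat.card G)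
    {ξ ξ' : IrrCharacter (centralizer ({z} : Set G))} (hξ : ξ ∈ sb p P e z) (hξ' : ξ' ∈ sb p P e z)
    (h1 : ξ.1 ⟨z, mem_centralizer_singleton_iff.2 rfl⟩ / ξ.1 1 = ξ'.1 ⟨z, mem_centralizer_singleton_iff.2 rfl⟩ / ξ'.1 1) :
    ξ = ξ' := by
  refine Subtype.ext (funext fun c => by_contra fun h2 => ?_)
  obtain ⟨x, hx⟩ := exists_isPPart (p := p) c
  have h3 := h.mem_of_sub_ne hξ hξ' (hx.map (Subgroup.subtype _)) (sub_ne_zero.2 h2)
  obtain ⟨y, rfl, h4, ⟨k, h5⟩, h6⟩ := hx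
  have h7 : zpowers z = zpowers (x : G) := eq_of_le_of_card_ge (zpowers_le.2 h3) (by
    rw [Nat.card_zpowers, Nat.card_zpowers, h.oz, orderOf_coe, h5]
    refine (Nat.pow_le_pow_right hp.out.pos (le_of_not_gt fun h8 => hG ((pow_dvd_pow p h8).trans ?_))).trans (pow_one p).le
    rw [← h5, ← orderOf_coe]; exact orderOf_dvd_natCard _)
  obtain ⟨i, hi⟩ := (mem_powers_iff_mem_zpowers.2 (h7 ▸ mem_zpowers (x : G)) :)
  have h8 : x = ⟨z, mem_centralizer_singleton_iff.2 rfl⟩ ^ i := Subtype.ext hi.symm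
  have h9 := congrFun (h.reg_eq hξ hξ').1 y
  rw [reg_of_not_dvd _ h6, reg_of_not_dvd _ h6] at h9
  exact h2 (by rw [h4.eq, h8, apply_mul_pow, apply_mul_pow, h1, h9])

theorem CS.exists_gal (h : CS p B (zpowers z) e z g ε) (hG : ¬ p ^ 2 ∣ Nat.card G)
    {θ ξ ξ' : IrrCharacter (centralizer ({z} : Set G))} (h1 : θ ∈ sb p (zpowers z) e z)
    (h2 : ∀ c : centralizer ({z} : Set G), (c : G) ∈ zpowers z → θ.1 c = θ.1 1)
    (hξ : ξ ∈ sb p (zpowers z) e z \ {θ}) (hξ' : ξ' ∈ sb p (zpowers z) e z \ {θ}) :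
    ∃ σ, FixR p (Nat.card G) σ ∧ gal σ ξ = ξ' := by
  have h3 : ∀ η : IrrCharacter (centralizer ({z} : Set G)),
      (η.1 ⟨z, mem_centralizer_singleton_iff.2 rfl⟩ / η.1 1) ^ p = 1 := fun η => by
    have h3 := apply_mul_pow (ξ := η) 1 p
    rw [show (⟨z, mem_centralizer_singleton_iff.2 rfl⟩ : centralizer ({z} : Set G)) ^ p = 1 from
      Subtype.ext (by simp [← h.oz]), one_mul] at h3
    exact (mul_eq_right₀ η.2.apply_one_ne_zero).1 h3.symm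
  have h4 : ∀ η ∈ sb p (zpowers z) e z \ {θ}, η.1 ⟨z, mem_centralizer_singleton_iff.2 rfl⟩ / η.1 1 ≠ 1 :=
    fun η hη h4 => hη.2 (h.eq_of_apply hG hη.1 h1 (by
      rw [h4, h2 _ (mem_zpowers z), div_self θ.2.apply_one_ne_zero]))
  obtain ⟨σ, h5, h6⟩ := exists_fixR (Nat.card_pos (α := G)).ne' (h3 ξ) (h4 ξ hξ) (h3 ξ') (h4 ξ' hξ')
  exact ⟨σ, h5, h.eq_of_apply hG (h5.mem (card_subgroup_dvd_card _) h.bf.closed hξ.1) hξ'.1
    (by rw [gal_apply, gal_apply, ← map_div₀, h6])⟩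

theorem CS.gal_canonical (h : CS p B (zpowers z) e z g ε) {θ : IrrCharacter (centralizer ({z} : Set G))}
    (h1 : θ ∈ sb p (zpowers z) e z) (h2 : ∀ c : centralizer ({z} : Set G), (c : G) ∈ zpowers z → θ.1 c = θ.1 1)
    {σ : ℂ ≃+* ℂ} (hσ : FixR p (Nat.card G) σ) : gal σ θ = θ := by
  obtain ⟨θ', -, h3⟩ := h.exists_canonical
  rw [(h3 _ (hσ.mem (card_subgroup_dvd_card _) h.bf.closed h1)).1 fun c hc => by rw [gal_apply, gal_apply, h2 c hc],
    (h3 _ h1).1 h2]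

namespace EX

variable [Fintype G] {χ₀ ξ : IrrCharacter (centralizer ({z} : Set G))} {X : Finset (IrrCharacter G)}
  {y : IrrCharacter (centralizer ({z} : Set G)) → IrrCharacter G} {δ : IrrCharacter G → ℤ} {δ₀ : ℤ}
  {χ : IrrCharacter G} (h : EX p B P e z g ε χ₀ X y δ δ₀) {σ : ℂ ≃+* ℂ} (hσ : FixR p (Nat.card G) σ)
  (h0 : gal σ χ₀ = χ₀)
include h hσ h0

theorem gal_X (hχ : χ ∈ X) : gal σ χ = χ := Subtype.ext (funext fun x => by
  by_cases hx : p ∣ orderOf x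
  · have h1 := h.sing_X hχ hx
    have h2 := congrArg σ h1
    rw [map_mul, map_mul, map_neg, map_natCast, map_intCast, indFun_gal, show (fun c => σ ((χ₀.1 - reg p χ₀.1) c)) =
      χ₀.1 - reg p χ₀.1 from funext fun c => ?_, ← h1] at h2
    · exact mul_left_cancel₀ (Nat.cast_ne_zero.2 h.ne) h2
    · rw [Pi.sub_apply, map_sub, ← gal_apply, h0, sub_right_inj]
      by_cases hc : p ∣ orderOf c
      · rw [reg_of_dvd _ hc, map_zero]
      · rw [reg_of_not_dvd _ hc, ← gal_apply, h0]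
  · exact hσ.apply dvd_rfl χ.2.isGen hx)

theorem gal_mem (hξ : ξ ∈ sb p P e z \ {χ₀}) : gal σ ξ ∈ sb p P e z \ {χ₀} :=
  ⟨hσ.mem (card_subgroup_dvd_card _) h.bf.closed hξ.1, fun h1 => hξ.2 (gal_injective σ (h1.trans h0.symm))⟩

theorem gal_Y (hξ : ξ ∈ sb p P e z \ {χ₀}) : gal σ (y ξ) = y (gal σ ξ) := Subtype.ext (funext fun x => by
  have h1 := congrArg σ (congrFun (h.ind ξ hξ) x)
  rw [indFun_gal, show (fun c => σ ((ξ.1 - χ₀.1) c)) = (gal σ ξ).1 - χ₀.1 from funext fun c => by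
    rw [Pi.sub_apply, map_sub, ← gal_apply σ χ₀, h0]; rfl, h.ind _ (h.gal_mem hσ h0 hξ)] at h1
  simp only [Pi.add_apply, Pi.smul_apply, Finset.sum_apply, smul_eq_mul, map_add, map_mul, map_sum, map_intCast] at h1
  rw [Finset.sum_congr rfl fun χ hχ => show δ χ * σ (χ.1 x) = δ χ * χ.1 x by
    rw [← gal_apply, h.gal_X hσ h0 hχ], add_left_inj] at h1
  exact (mul_left_cancel₀ (by rcases h.sgn₀ with h | h <;> simp [h]) h1).symm)

end EX

end Cfsg.Agent.B
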