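import Cfsg.Agent.B.Inv2
import Cfsg.Agent.B.Contr
import Cfsg.Agent.C3.Sig
import Cfsg.Agent.H2.MCF

/-!
# The principal block of a group with dihedral Sylow 2-subgroups.
-/

set_option autoImplicit false
set_option linter.unusedSectionVars false

namespace Cfsg.Agent.B

open MonoidAlgebra Subgroup Cfsg.Agent.H3 Cfsg.Agent.H2
open scoped ComplexConjugate

section lattice

variable {ι : Type*} [Fintype ι] [DecidableEq ι]

theorem sum_update_mul (c f : ι → ℤ) (s : ι) :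
    ∑ i, Function.update c s 0 i * f i = ∑ i, c i * f i - c s * f s := by
  rw [← Finset.add_sum_erase _ _ (Finset.mem_univ s), ← Finset.add_sum_erase _ (fun i => c i * f i) (Finset.mem_univ s),
    Function.update_self, zero_mul, zero_add, add_sub_cancel_left]
  exact Finset.sum_congr rfl fun i hi => by rw [Function.update_of_ne (Finset.ne_of_mem_erase hi)]

theorem sum_update_sq (c : ι → ℤ) (s : ι) :
    ∑ i, Function.update c s 0 i ^ 2 = ∑ i, c i ^ 2 - c s ^ 2 := by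
  rw [← Finset.add_sum_erase _ _ (Finset.mem_univ s), ← Finset.add_sum_erase _ (fun i => c i ^ 2) (Finset.mem_univ s),
    Function.update_self, add_sub_cancel_left, zero_pow two_ne_zero, zero_add]
  exact Finset.sum_congr rfl fun i hi => by rw [Function.update_of_ne (Finset.ne_of_mem_erase hi)]

theorem int_norm_two {c : ι → ℤ} (h : ∑ i, c i ^ 2 = 2) : ∃ s t, s ≠ t ∧ (c s = 1 ∨ c s = -1) ∧
    (c t = 1 ∨ c t = -1) ∧ ∀ i, i ≠ s → i ≠ t → c i = 0 := by
  obtain ⟨s, hs⟩ : ∃ s, c s ≠ 0 := by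
    by_contra e
    push Not at e
    simp [e] at h
  have h1 : c s ^ 2 ≤ 2 := h ▸ Finset.single_le_sum (f := fun i => c i ^ 2) (fun i _ => sq_nonneg _)
    (Finset.mem_univ s)
  have h2 : c s = 1 ∨ c s = -1 := by
    have : -2 < c s := by nlinarith
    have : c s < 2 := by nlinarith
    omega
  obtain ⟨t, h3, h4⟩ := int_sum_sq_eq_one (Function.update c s 0) (by
    rw [sum_update_sq, h]; rcases h2 with e | e <;> rw [e] <;> norm_num)
  have h5 : s ≠ t := by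
    rintro rfl
    simp at h3
  rw [Function.update_of_ne h5.symm] at h3
  exact ⟨s, t, h5, h2, h3, fun i h6 h7 => by rw [← h4 i h7, Function.update_of_ne h6]⟩

theorem sum_mul_of_two {c : ι → ℤ} {s t : ι} (h : s ≠ t) (h0 : ∀ i, i ≠ s → i ≠ t → c i = 0) (f : ι → ℤ) :
    ∑ i, c i * f i = c s * f s + c t * f t :=
  Fintype.sum_eq_add s t h fun i hi => by rw [h0 i hi.1 hi.2, zero_mul]

theorem int_norm_two' {c d : ι → ℤ} (h : ∑ i, c i ^ 2 = 2) (hd : ∀ i, 0 < d i) (h1 : ∑ i, c i * d i = 1) :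
    ∃ s t, s ≠ t ∧ c s = 1 ∧ c t = -1 ∧ ∀ i, i ≠ s → i ≠ t → c i = 0 := by
  obtain ⟨s, t, a1, a2, a3, a4⟩ := int_norm_two h
  rw [sum_mul_of_two a1 a4] at h1
  have := hd s
  have := hd t
  rcases a2 with a2 | a2 <;> rcases a3 with a3 | a3 <;> rw [a2, a3] at h1
  · omega
  · exact ⟨s, t, a1, a2, a3, a4⟩
  · exact ⟨t, s, a1.symm, a3, a2, fun i b1 b2 => a4 i b2 b1⟩
  · omega

theorem lattice_aux {J : Type*} [Fintype J] (hJ : Fintype.card J ≠ 2) {c₀ d : ι → ℤ} (hd : ∀ i, 0 < d i)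
    (h0 : ∑ i, c₀ i ^ 2 = 3) {δ : ℤ} (hδ : δ = 1 ∨ δ = -1) (h1 : ∑ i, c₀ i * d i = 1) {e : J → ι}
    (he : Function.Injective e) (h2 : ∀ j, c₀ (e j) = δ) : Fintype.card J ≤ 1 := by
  by_contra h
  have h3 : 3 ≤ Fintype.card J := by omega
  obtain ⟨a, b, g, n1, n2, n3⟩ := Fintype.two_lt_card_iff.1 h3
  obtain ⟨s, t, a1, a2, a3, a4⟩ := int_norm_two (c := Function.update c₀ (e a) 0) (by
    rw [sum_update_sq, h0, h2]; rcases hδ with e | e <;> rw [e] <;> norm_num)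
  have b1 := sum_update_mul c₀ d (e a)
  rw [sum_mul_of_two a1 a4, h1, h2] at b1
  have hδ0 : δ ≠ 0 := by omega
  have b2 : ∀ j, j ≠ a → e j = s ∨ e j = t := fun j hj => by
    by_contra e'
    push Not at e'
    have := a4 _ e'.1 e'.2
    rw [Function.update_of_ne (he.ne hj), h2] at this
    exact hδ0 this
  have b3 : ∀ j, j ≠ a → Function.update c₀ (e a) 0 (e j) = δ := fun j hj => by
    rw [Function.update_of_ne (he.ne hj), h2]
  have b4 : Function.update c₀ (e a) 0 s = δ ∧ Function.update c₀ (e a) 0 t = δ := by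
    rcases b2 b n1.symm with e1 | e1 <;> rcases b2 g n2.symm with e2 | e2
    · exact absurd (he (e1.trans e2.symm)) n3
    · exact ⟨e1 ▸ b3 b n1.symm, e2 ▸ b3 g n2.symm⟩
    · exact ⟨e2 ▸ b3 g n2.symm, e1 ▸ b3 b n1.symm⟩
    · exact absurd (he (e1.trans e2.symm)) n3
  rw [b4.1, b4.2] at b1
  have := hd s
  have := hd t
  have := hd (e a)
  rcases hδ with e | e <;> rw [e] at b1 <;> omega

theorem lattice_dih {J : Type*} [Fintype J] [Nonempty J] (hJ : Fintype.card J ≠ 2) {c : J → ι → ℤ}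
    {c₀ d : ι → ℤ} (hd : ∀ i, 0 < d i) (h0 : ∑ i, c₀ i ^ 2 = 3) (h1 : ∑ i, c₀ i * d i = 1)
    (h2 : ∀ j, ∑ i, c j i ^ 2 = 2) (h3 : ∀ j, ∑ i, c j i * d i = 1)
    (h4 : ∀ j j', j ≠ j' → ∑ i, c j i * c j' i = 1) (h5 : ∀ j, ∑ i, c j i * c₀ i = 1) :
    ∃ (δ : ℤ) (s : ι) (e : J → ι), (δ = 1 ∨ δ = -1) ∧ Function.Injective e ∧ (∀ j, e j ≠ s) ∧ c₀ s = -δ ∧
      (∀ j, c₀ (e j) = 0) ∧ ∀ j, c j s = -δ ∧ c j (e j) = δ ∧ ∀ i, i ≠ s → i ≠ e j → c j i = 0 := by
  choose s t a1 a2 a3 a4 using fun j => int_norm_two' (h2 j) hd (h3 j)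
  have b0 : ∀ i, c₀ i ^ 2 ≤ 3 := fun i => h0 ▸ Finset.single_le_sum (f := fun i => c₀ i ^ 2)
    (fun i _ => sq_nonneg _) (Finset.mem_univ i)
  have b1 : ∀ j, (c₀ (s j) = 1 ∧ c₀ (t j) = 0) ∨ (c₀ (s j) = 0 ∧ c₀ (t j) = -1) := fun j => by
    have e1 := h5 j
    rw [sum_mul_of_two (a1 j) (a4 j), a2, a3] at e1
    have e2 := b0 (s j)
    have e3 := b0 (t j)
    have : c₀ (s j) < 2 := by nlinarith
    have : -2 < c₀ (t j) := by nlinarith
    omega
  have b2 : ∀ j j', j ≠ j' → (s j = s j' ∧ t j ≠ t j') ∨ (s j ≠ s j' ∧ t j = t j') := fun j j' hj => by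
    have e1 := h4 j j' hj
    rw [sum_mul_of_two (a1 j) (a4 j), a2, a3] at e1
    have v : ∀ i, (i = s j' ∧ c j' i = 1) ∨ (i = t j' ∧ c j' i = -1) ∨ (i ≠ s j' ∧ i ≠ t j' ∧ c j' i = 0) :=
      fun i => by
        by_cases f1 : i = s j'
        · exact Or.inl ⟨f1, f1 ▸ a2 j'⟩
        by_cases f2 : i = t j'
        · exact Or.inr (Or.inl ⟨f2, f2 ▸ a3 j'⟩)
        exact Or.inr (Or.inr ⟨f1, f2, a4 j' i f1 f2⟩)
    rcases v (s j) with ⟨f1, f2⟩ | ⟨f1, f2⟩ | ⟨f1, f1', f2⟩ <;>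
      rcases v (t j) with ⟨g1, g2⟩ | ⟨g1, g2⟩ | ⟨g1, g1', g2⟩ <;> rw [f2, g2] at e1 <;>
      first | omega | tauto
  have c1 : (∀ j j', s j = s j') → (∀ j, c₀ (s j) = 1) → ∃ (δ : ℤ) (s : ι) (e : J → ι), (δ = 1 ∨ δ = -1) ∧
      Function.Injective e ∧ (∀ j, e j ≠ s) ∧ c₀ s = -δ ∧
      (∀ j, c₀ (e j) = 0) ∧ ∀ j, c j s = -δ ∧ c j (e j) = δ ∧ ∀ i, i ≠ s → i ≠ e j → c j i = 0 := by
    intro f1 f2
    obtain ⟨j₀⟩ := ‹Nonempty J›
    refine ⟨-1, s j₀, t, Or.inr rfl, fun j j' e => by_contra fun n => ?_, fun j => ?_, f2 _, fun j => ?_,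
      fun j => ?_⟩
    · have := b2 j j' n
      have := f1 j j'
      tauto
    · rw [f1 j₀ j]; exact (a1 j).symm
    · have := b1 j
      have := f2 j
      omega
    · rw [f1 j₀ j]; exact ⟨a2 j, a3 j, a4 j⟩
  have c2 : (∀ j j', t j = t j') → (∀ j, c₀ (t j) = -1) → ∃ (δ : ℤ) (s : ι) (e : J → ι), (δ = 1 ∨ δ = -1) ∧
      Function.Injective e ∧ (∀ j, e j ≠ s) ∧ c₀ s = -δ ∧
      (∀ j, c₀ (e j) = 0) ∧ ∀ j, c j s = -δ ∧ c j (e j) = δ ∧ ∀ i, i ≠ s → i ≠ e j → c j i = 0 := by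
    intro f1 f2
    obtain ⟨j₀⟩ := ‹Nonempty J›
    refine ⟨1, t j₀, s, Or.inl rfl, fun j j' e => by_contra fun n => ?_, fun j => ?_, f2 _, fun j => ?_,
      fun j => ?_⟩
    · have := b2 j j' n
      have := f1 j j'
      tauto
    · rw [f1 j₀ j]; exact a1 j
    · have := b1 j
      have := f2 j
      omega
    · rw [f1 j₀ j]; exact ⟨a3 j, a2 j, fun i g1 g2 => a4 j i g2 g1⟩
  obtain ⟨j₀⟩ := ‹Nonempty J›
  by_cases f1 : ∀ j j', s j = s j'
  · rcases b1 j₀ with g | g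
    · exact c1 f1 fun j => f1 j₀ j ▸ g.1
    · have g1 : ∀ j, c₀ (t j) = -1 := fun j => by
        have := b1 j
        rw [← f1 j₀ j] at this
        omega
      have g2 := lattice_aux hJ hd h0 (Or.inr rfl) h1 (e := t) (fun j j' e => by_contra fun n => by
        have := b2 j j' n
        have := f1 j j'
        tauto) g1
      have := Fintype.card_le_one_iff_subsingleton.1 g2
      exact c2 (fun j j' => by rw [Subsingleton.elim j j']) g1
  · push Not at f1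
    obtain ⟨j₁, j₂, f1⟩ := f1
    have n : j₁ ≠ j₂ := fun e => f1 (by rw [e])
    have f2 : ∀ j, t j = t j₁ := fun j => by
      by_contra e
      have e1 : j ≠ j₁ := fun e' => e (by rw [e'])
      have e2 := (b2 j₁ j₂ n).resolve_left fun e' => f1 e'.1
      have e3 : j ≠ j₂ := fun e' => e (by rw [e', e2.2])
      have e4 := (b2 j j₁ e1).resolve_right fun e' => e e'.2
      have e5 := (b2 j j₂ e3).resolve_right fun e' => e (e'.2.trans e2.2.symm)
      exact f1 (e4.1.symm.trans e5.1)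
    have f3 : ∀ j j', t j = t j' := fun j j' => (f2 j).trans (f2 j').symm
    rcases b1 j₀ with g | g
    · have g1 : ∀ j, c₀ (s j) = 1 := fun j => by
        have := b1 j
        rw [← f3 j₀ j] at this
        omega
      have g2 := lattice_aux hJ hd h0 (Or.inl rfl) h1 (e := s) (fun j j' e => by_contra fun n => by
        have := b2 j j' n
        have := f3 j j'
        tauto) g1
      exact absurd ((Fintype.card_le_one_iff_subsingleton.1 g2).elim _ _) n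
    · exact c2 f3 fun j => f3 j₀ j ▸ g.2

end lattice

variable {G : Type*} [Group G] [Finite G]

theorem principal_apply_ne_zero {p : ℕ} [hp : Fact p.Prime] {M : Ideal AlgInt} [PMod p M] {z : G}
    (hz : PElt p z) (hn : PNil p (centralizer {z}))
    (hf : (Nat.card (centralizer ({z} : Set G))).factorization p = (Nat.card G).factorization p)
    {χ : IrrCharacter G} (hχ : χ ∈ principalBlock M G) : (χ : G → ℂ) z ≠ 0 := by
  intro h
  have h1 : IsInducedBlock M _ (principalBlock M (centralizer ({z} : Set G))) (principalBlock M G) :=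
    (third_main (inducedBlockDefined_centralizer hz isPBlock_principal)).2 rfl
  refine IsInducedBlock.ctr_self_ne_zero hz h1 (by rw [C3.defect_principal, C3.defect_principal, hf]) hχ ?_
  rw [ctr_congr (φ' := ∑ i ∈ (∅ : Finset Unit), (0 : ℂ) • (0 : G → ℂ)) isPBlock_principal.closed,
    ctr_sum_left, Finset.sum_empty]
  funext y
  by_cases hy : p ∣ orderOf y
  · rw [reg_of_dvd _ hy, reg_of_dvd _ hy]
  · rw [reg_of_not_dvd _ hy, reg_of_not_dvd _ hy]
    exact (apply_mul_of_pNil hz hn (commute_of_mem_centralizer y) (by rwa [orderOf_coe]) hχ).trans h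

section dih

variable {S : Subgroup G} {k : ℕ} {x y : G} (h : MC S k x y 1) (hy : y * y = 1) (hS : SylIn 2 S ⊤)
include h hy

theorem dih_sq {t : G} (ht : t ∈ S) (htA : t ∉ zpowers x) : t * t = 1 := by
  obtain ⟨i, rfl | rfl⟩ := (h.mem t).1 ht
  · exact absurd (zpow_mem (mem_zpowers x) i) htA
  · exact refl_mul_self hy (by simpa using h.inv) i

omit hy in
theorem dih_conj {s a : G} (hs : s ∈ S) (ha : a ∈ zpowers x) : s * a * s⁻¹ = a ∨ s * a * s⁻¹ = a⁻¹ := by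
  by_cases hA : s ∈ zpowers x
  · left; rw [(MC.commute_A hA ha).eq, mul_inv_cancel_right]
  · right; simpa using (h.of_not_mem hs hA).conj_A' ha

include hS

omit hy in
theorem dih_syl : SylIn 2 S (centralizer {x ^ (2 * k)}) :=
  hS.mono (fun _ hg => mem_centralizer_singleton_iff.2 (h.commute_z hg)) le_top

theorem dih_pNil : PNil 2 (centralizer ({x ^ (2 * k)} : Set G)) := by
  refine (dih_syl h hS).frobenius fun U hU _ _ _ g hg ho => by_contra fun hc => ?_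
  obtain ⟨a, ha, haA, hf, h1 | h1⟩ := h.exists_of_oddAut hU (oddAut_conj hg.2 ho) (by
    by_contra e
    push Not at e
    exact hc fun u hu => by
      have := e u hu
      rw [mul_inv_eq_iff_eq_mul] at this
      exact this.symm)
  · rw [(h.eq_z haA h1.a2).resolve_left h1.a1, mem_centralizer_singleton_iff.1 hg.1,
      mul_inv_cancel_right] at hf
    exact hf MC.z_mem_A
  · have h2 := dih_sq h hy (hU h1.b_mem) hf
    rw [h1.sq] at h2
    exact h1.t_ne_one h2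

omit hy hS in
theorem dih_cent_le {a : G} (ha : a ∈ zpowers x) (h1 : a ≠ 1) :
    centralizer ({a} : Set G) ≤ centralizer {x ^ (2 * k)} := fun g hg => by
  obtain ⟨n, hn⟩ := mem_zpowers_iff.1 (h.z_mem_zpowers ha h1)
  rw [← hn]
  exact mem_centralizer_singleton_iff.2 (Commute.zpow_right (mem_centralizer_singleton_iff.1 hg) n)

theorem dih_fus {a b : G} (ha : a ∈ zpowers x) (hb : b ∈ zpowers x) (hc : IsConj a b) : b = a ∨ b = a⁻¹ := by
  by_cases h1 : a = 1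
  · subst h1
    exact Or.inl (isConj_one_right.1 hc)
  obtain ⟨g, hg⟩ := isConj_iff.1 hc
  obtain ⟨n, hn⟩ := mem_zpowers_iff.1 (h.z_mem_zpowers ha h1)
  have h2 : g * x ^ (2 * k) * g⁻¹ = x ^ (2 * k) := by
    refine (h.eq_z ?_ (sq_of_isConj h.z_mul_self (isConj_iff.2 ⟨g, rfl⟩))).resolve_left ?_
    · rw [← hn, ← conj_zpow, hg]; exact zpow_mem hb n
    · simpa using h.z_ne_one
  have hP := dih_syl h hS
  obtain ⟨u, hu, s, hs, rfl⟩ := hP.exists_resOf_mul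
    (mem_centralizer_singleton_iff.2 (mul_inv_eq_iff_eq_mul.1 h2))
  have h3 : s * a * s⁻¹ ∈ S := S.mul_mem (S.mul_mem hs (h.A_le ha)) (S.inv_mem hs)
  have h4 : (s * a * s⁻¹)⁻¹ * b ∈ S ⊓ resOf 2 (centralizer {x ^ (2 * k)}) := by
    refine ⟨S.mul_mem (S.inv_mem h3) (h.A_le hb), ?_⟩
    rw [← hg, show (s * a * s⁻¹)⁻¹ * (u * s * a * (u * s)⁻¹) = (s * a * s⁻¹)⁻¹ * u * (s * a * s⁻¹) * u⁻¹ by
      group]
    exact (resOf 2 _).mul_mem ((mem_normalizer_iff''.1 (le_normalizer_resOf 2 _ (hP.le h3)) _).1 hu)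
      ((resOf 2 _).inv_mem hu)
  rw [hP.pNil_iff.1 (dih_pNil h hy hS), mem_bot, inv_mul_eq_one] at h4
  rw [← h4]
  exact dih_conj h hs ha

theorem dih_card_cent {a : G} (ha : a ∈ S) :
    Nat.card ↥(centralizer {x ^ (2 * k)} ⊓ centralizer {a}) = Nat.card ↥(S ⊓ centralizer {a}) *
      Nat.card ↥(resOf 2 (centralizer {x ^ (2 * k)}) ⊓ centralizer {a}) :=
  have hP := dih_syl h hS
  card_split_cent (hP.pNil_iff.1 (dih_pNil h hy hS)) (hP.le.trans (le_normalizer_resOf 2 _)) hP.le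
    (resOf_le 2 _) (fun _ hg => hP.exists_mul_resOf hg) ha

theorem dih_fact {a : G} (ha : a ∈ zpowers x) (h1 : a ≠ 1) :
    2 ^ (Nat.card (centralizer ({a} : Set G))).factorization 2 = Nat.card ↥(S ⊓ centralizer {a}) := by
  have h2 := dih_card_cent h hy hS (h.A_le ha)
  rw [inf_eq_right.2 (dih_cent_le h ha h1)] at h2
  obtain ⟨n, hn⟩ := IsPGroup.iff_card.1 (h.isPGroup.to_le (inf_le_left : S ⊓ centralizer {a} ≤ S))
  have h3 : ¬ 2 ∣ Nat.card ↥(resOf 2 (centralizer {x ^ (2 * k)}) ⊓ centralizer {a}) := fun e =>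
    Nat.prime_two.coprime_iff_not_dvd.1 (pNil_iff_card.1 (dih_pNil h hy hS)).symm
      (e.trans (card_dvd_of_le inf_le_left))
  rw [h2, hn, Nat.factorization_mul (by positivity) Nat.card_pos.ne', Finsupp.add_apply,
    Nat.factorization_eq_zero_of_not_dvd h3, Nat.Prime.factorization_pow Nat.prime_two]
  simp

open Classical in
theorem dih_col (M : Ideal AlgInt) [PMod 2 M] {a b : G} (ha : a ∈ zpowers x) (h1 : a ≠ 1) (hb : b ∈ zpowers x) :
    ∑ χ : IrrCharacter G, (if χ ∈ principalBlock M G then (χ : G → ℂ) a * (χ : G → ℂ) b else 0) =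
      (4 * k : ℕ) * ((if b = a then 1 else 0) + if b = a⁻¹ then 1 else 0) := by
  have hap : PElt 2 a := pElt_of_mem h.isPGroup (h.A_le ha)
  have hbp : PElt 2 b := pElt_of_mem h.isPGroup (h.A_le hb)
  have hi : ∀ χ : IrrCharacter G, (χ : G → ℂ) a⁻¹ = (χ : G → ℂ) a := fun χ => by
    have : y * a * y⁻¹ = a⁻¹ := by simpa using h.conj_A' ha
    rw [← this, χ.2.isClassFunction.conj_apply]
  have h2 := sum_principal_of_pNil (M := M) hap ((dih_pNil h hy hS).mono (dih_cent_le h ha h1))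
  rw [dih_fact h hy hS ha h1] at h2
  by_cases h3 : b = a ∨ b = a⁻¹
  · have h4 : ∀ χ : IrrCharacter G, (χ : G → ℂ) b = (χ : G → ℂ) a⁻¹ := fun χ => by
      rcases h3 with e | e <;> rw [e]
      exact (hi χ).symm
    simp only [h4]
    rw [h2]
    by_cases h5 : a * a = 1
    · have h6 : a⁻¹ = a := inv_eq_of_mul_eq_one_right h5
      rw [h6, or_self] at h3
      rw [h6, if_pos h3, (h.eq_z ha h5).resolve_left h1, inf_eq_left.2 (dih_syl h hS).le, h.card]
      push_cast; ring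
    · have h6 : S ⊓ centralizer {a} = zpowers x := le_antisymm (fun g hg => h.mem_A_of_commute ha h5 hg.1
        (mem_centralizer_singleton_iff.1 hg.2).symm) (le_inf h.A_le fun g hg =>
          mem_centralizer_singleton_iff.2 (MC.commute_A hg ha))
      have h7 : a ≠ a⁻¹ := fun e => h5 (by rw [← eq_inv_iff_mul_eq_one]; exact e)
      rw [h6, Nat.card_zpowers, h.ord]
      rcases h3 with e | e <;> rw [e] <;> simp [h7, h7.symm]
  · have h4 := (isPBlock_principal (M := M) (G := G)).closed.orth hap.isPPart_self hbp.inv.isPPart_self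
      (fun e => h3 (by
        rcases dih_fus h hy hS ha (inv_mem hb) e with e | e
        · exact Or.inr (inv_eq_iff_eq_inv.1 e)
        · exact Or.inl (inv_injective e)))
    rw [inv_inv] at h4
    push Not at h3
    rw [h4, if_neg h3.1, if_neg h3.2]; simp

theorem dih_ne_zero (M : Ideal AlgInt) [PMod 2 M] {χ : IrrCharacter G} (hχ : χ ∈ principalBlock M G) :
    (χ : G → ℂ) (x ^ (2 * k)) ≠ 0 := by
  refine principal_apply_ne_zero (pElt_of_mem h.isPGroup h.z_mem) (dih_pNil h hy hS) ?_ hχ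
  have h1 := (dih_syl h hS).card_eq_pow
  rw [hS.card_eq_pow, card_top] at h1
  exact (Nat.pow_right_injective le_rfl h1).symm

omit h hy hS in
theorem exists_cyc_char {x : G} {m : ℕ} (hm : orderOf x = m) {ζ : ℂ} (hζ : IsPrimitiveRoot ζ m)
    [Fintype (zpowers x)] : ∃ w : zpowers x →* ℂˣ, (∀ l : ℕ, (w ⟨x ^ l, pow_mem (mem_zpowers x) l⟩ : ℂ) = ζ ^ l) ∧
      Function.Injective w ∧ ∀ t : ℤ, ∑ u, (w u : ℂ) ^ t = if (m : ℤ) ∣ t then (m : ℂ) else 0 := by
  classical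
  have h0 : m ≠ 0 := hm ▸ (orderOf_pos x).ne'
  have h1 : ∀ u : zpowers x, u ∈ zpowers (⟨x, mem_zpowers x⟩ : zpowers x) := fun u => by
    obtain ⟨n, hn⟩ := mem_zpowers_iff.1 u.2
    exact ⟨n, Subtype.ext hn⟩
  let η : ℂˣ := (hζ.isUnit h0).unit
  have hη : IsPrimitiveRoot η m := IsPrimitiveRoot.coe_units_iff.1 hζ
  have h2 : orderOf η ∣ orderOf (⟨x, mem_zpowers x⟩ : zpowers x) := by
    rw [← hη.eq_orderOf, ← orderOf_coe, hm]
  let w := monoidHomOfForallMemZpowers h1 h2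
  have hw : w ⟨x, mem_zpowers x⟩ = η := monoidHomOfForallMemZpowers_apply_gen h1 h2
  refine ⟨w, fun l => ?_, (injective_iff_map_eq_one w).2 fun u hu => ?_, fun t => ?_⟩
  · rw [show (⟨x ^ l, pow_mem (mem_zpowers x) l⟩ : zpowers x) = ⟨x, mem_zpowers x⟩ ^ l from rfl, map_pow, hw]
    rfl
  · obtain ⟨n, rfl⟩ := mem_zpowers_iff.1 (h1 u)
    rw [map_zpow, hw, hη.zpow_eq_one_iff_dvd] at hu
    exact Subtype.ext (by simpa using (zpow_eq_one_iff_dvd hm).2 hu)
  · have h3 := sum_hom_units ((Units.coeHom ℂ).comp (w ^ t))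
    simp only [MonoidHom.comp_apply, MonoidHom.zpow_apply, Units.coeHom_apply, Units.val_zpow_eq_zpow_val] at h3
    rw [h3, ← Nat.card_eq_fintype_card, Nat.card_zpowers, hm]
    have h4 : (Units.coeHom ℂ).comp (w ^ t) = 1 ↔ (m : ℤ) ∣ t := by
      rw [← hζ.zpow_eq_one_iff_dvd]
      refine ⟨fun e => ?_, fun e => MonoidHom.ext fun u => ?_⟩
      · simpa [hw, η] using DFunLike.congr_fun e ⟨x, mem_zpowers x⟩
      · obtain ⟨n, rfl⟩ := mem_zpowers_iff.1 (h1 u)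
        rw [map_zpow]
        simp [hw, η, e]
    simp only [h4]
    split_ifs <;> simp

open Classical in
theorem dih_coeff (M : Ideal AlgInt) [PMod 2 M] {ζ : ℂ} (hζ : IsPrimitiveRoot ζ (4 * k)) :
    ∃ b : ℤ → IrrCharacter G → ℤ, (∀ j χ, χ ∉ principalBlock M G → b j χ = 0) ∧
      (∀ j, ¬ (4 * k : ℤ) ∣ j → b j (oneIrr G) = -1) ∧
      (∀ i j, ¬ (4 * k : ℤ) ∣ i → ¬ (4 * k : ℤ) ∣ j → ∑ χ, b i χ * b j χ =
        (if (4 * k : ℤ) ∣ i + j then 1 else 0) + (if (4 * k : ℤ) ∣ i - j then 1 else 0) + 2) ∧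
      (∀ j ρ, ¬ 2 ∣ orderOf ρ → ∑ χ, (b j χ : ℂ) * (χ : G → ℂ) ρ = 0) ∧
      (∀ χ ∈ principalBlock M G, ∀ l : ℕ, x ^ l ≠ 1 → (χ : G → ℂ) (x ^ l) = b (2 * k) χ * (-1) ^ l +
        ∑ j : Fin (2 * k - 1), b (j + 1) χ * (ζ ^ ((j + 1) * l) + (ζ ^ ((j + 1) * l))⁻¹)) ∧
      ∀ (j : ℤ) (f : IrrCharacter G → ℂ), ∑ χ, (b j χ : ℂ) * f χ = ((4 * k : ℕ) : ℂ)⁻¹ *
        ∑ l ∈ Finset.range (4 * k), ((ζ ^ l) ^ j - 1) *
          ∑ χ : IrrCharacter G, if χ ∈ principalBlock M G then (χ : G → ℂ) (x ^ l) * f χ else 0 := by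
  have := Fintype.ofFinite G
  obtain ⟨w, w1, w2, w3⟩ := exists_cyc_char h.ord hζ
  have hk := h.pos
  have hm : ((4 * k : ℕ) : ℂ) ≠ 0 := Nat.cast_ne_zero.2 (by omega)
  have hk' : (k : ℂ) ≠ 0 := Nat.cast_ne_zero.2 hk.ne'
  have hc : Nat.card (zpowers x) = 4 * k := by rw [Nat.card_zpowers, h.ord]
  have hi : ∀ (χ : IrrCharacter G) (u : zpowers x), (χ : G → ℂ) (u : G)⁻¹ = (χ : G → ℂ) u := fun χ u => by
    have : y * u * y⁻¹ = (u : G)⁻¹ := by simpa using h.conj_A' u.2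
    rw [← this, χ.2.isClassFunction.conj_apply]
  have a0 : ∀ (j : ℤ) (χ : IrrCharacter G), ∃ n : ℤ, ((4 * k : ℕ) : ℂ)⁻¹ *
      ∑ u : zpowers x, (χ : G → ℂ) u * ((w u : ℂ) ^ j - 1) = n := fun j χ => by
    obtain ⟨n, hn⟩ := (χ.2.isGen.res (zpowers x)).exists_int_inner
      ((isIrrCharacter_linear (w ^ (-j))).isGen.sub isGen_one)
    rw [classInner_eq_inv _ ((isIrrCharacter_linear (w ^ (-j))).isGen.sub isGen_one), hc] at hn
    exact ⟨n, by simpa using hn⟩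
  choose a ha using a0
  have pair : ∀ (j : ℤ) (f : IrrCharacter G → ℂ), ∑ χ, ((if χ ∈ principalBlock M G then a j χ else 0 : ℤ) : ℂ) * f χ =
      ((4 * k : ℕ) : ℂ)⁻¹ * ∑ u : zpowers x, ((w u : ℂ) ^ j - 1) *
        ∑ χ : IrrCharacter G, if χ ∈ principalBlock M G then (χ : G → ℂ) u * f χ else 0 := fun j f => by
    simp only [Finset.mul_sum]
    rw [Finset.sum_comm]
    refine Finset.sum_congr rfl fun χ _ => ?_
    split_ifs
    · rw [← ha, Finset.mul_sum, Finset.sum_mul]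
      exact Finset.sum_congr rfl fun u _ => by ring
    · simp
  refine ⟨fun j χ => if χ ∈ principalBlock M G then a j χ else 0, fun j χ e => if_neg e, fun j hj => ?_,
    fun i j h1 h2 => ?_, fun j ρ hρ => ?_, fun χ hχ l hl => ?_, fun j f => ?_⟩
  · simp only [if_pos (oneIrr_mem (M := M) (G := G))]
    have e := ha j (oneIrr G)
    simp only [oneIrr, one_mul, Finset.sum_sub_distrib, w3, Finset.sum_const, Finset.card_univ,
      ← Nat.card_eq_fintype_card, hc, nsmul_eq_mul, mul_one] at e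
    rw [if_neg (by exact_mod_cast hj), zero_sub, mul_neg, inv_mul_cancel₀ hm] at e
    exact_mod_cast e.symm
  · rw [← Int.cast_inj (α := ℂ)]
    simp only [Int.cast_sum, Int.cast_mul]
    rw [pair]
    have e1 : ∀ u : zpowers x, ((w u : ℂ) ^ i - 1) * ∑ χ : IrrCharacter G, (if χ ∈ principalBlock M G then
        (χ : G → ℂ) u * ((if χ ∈ principalBlock M G then a j χ else 0 : ℤ) : ℂ) else 0) =
        ((w u : ℂ) ^ i - 1) * (((w u : ℂ) ^ j - 1) + ((w u : ℂ) ^ (-j) - 1)) := fun u => by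
      by_cases hu : u = 1
      · simp [hu]
      congr 1
      have e2 := pair j fun χ => (χ : G → ℂ) u
      have e3 : ∀ v : zpowers x, ∑ χ : IrrCharacter G, (if χ ∈ principalBlock M G then
          (χ : G → ℂ) v * (χ : G → ℂ) u else 0) = (4 * k : ℕ) * ((if v = u then 1 else 0) +
            if v = u⁻¹ then 1 else 0) := fun v => by
        have := dih_col h hy hS M u.2 (fun e => hu (Subtype.ext e)) v.2
        simp only [mul_comm ((_ : G → ℂ) (u : G))] at this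
        rw [this]
        simp only [Subtype.ext_iff, coe_inv]
      simp only [e3, mul_left_comm _ ((4 * k : ℕ) : ℂ), ← Finset.mul_sum, inv_mul_cancel_left₀ hm, mul_add,
        Finset.sum_add_distrib, mul_ite, mul_one, mul_zero, Finset.sum_ite_eq', Finset.mem_univ,
        if_true] at e2
      refine Eq.trans (Finset.sum_congr rfl fun χ _ => ?_) (e2.trans (by simp; field_simp))
      split_ifs <;> simp [mul_comm]
    have e4 : ∀ u : zpowers x, ((w u : ℂ) ^ i - 1) * (((w u : ℂ) ^ j - 1) + ((w u : ℂ) ^ (-j) - 1)) =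
        (w u : ℂ) ^ (i + j) + (w u : ℂ) ^ (i - j) - 2 * (w u : ℂ) ^ i - (w u : ℂ) ^ j - (w u : ℂ) ^ (-j) +
          2 * (w u : ℂ) ^ (0 : ℤ) := fun u => by
      rw [sub_eq_add_neg i, zpow_add₀ (w u).ne_zero, zpow_add₀ (w u).ne_zero, zpow_zero]; ring
    simp only [e1, e4, Finset.sum_add_distrib, Finset.sum_sub_distrib, ← Finset.mul_sum, w3]
    push_cast at hm ⊢
    rw [if_neg h1, if_neg h2, if_neg (mt dvd_neg.1 h2), if_pos (dvd_zero _)]
    split_ifs <;> field_simp <;> ring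
  · rw [pair, Finset.sum_eq_zero, mul_zero]
    intro u _
    by_cases hu : u = 1
    · simp [hu]
    have := (isPBlock_principal (M := M) (G := G)).closed.weak_orth hρ
      ((pElt_of_mem h.isPGroup (h.A_le u.2)).dvd fun e => hu (Subtype.ext e))
    simp only [mul_comm ((_ : G → ℂ) ρ)] at this
    rw [this, mul_zero]
  · simp only [if_pos hχ]
    set v : zpowers x := ⟨x ^ l, pow_mem (mem_zpowers x) l⟩ with hv
    have hv1 : v ≠ 1 := fun e => hl (congrArg Subtype.val e)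
    have wm : ∀ u, (w u : ℂ) ^ (4 * k) = 1 := fun u => by
      rw [← Units.val_pow_eq_pow_val, ← map_pow, ← hc, pow_card_eq_one', map_one, Units.val_one]
    have geo : ∀ u, ∑ j ∈ Finset.range (4 * k), (w u : ℂ) ^ j = if u = 1 then ((4 * k : ℕ) : ℂ) else 0 :=
      fun u => by
        split_ifs with e
        · simp [e]
        · have e1 : (w u : ℂ) ≠ 1 := fun e' => e (w2 (by rw [map_one]; exact Units.ext e'))
          rw [geom_sum_eq e1, wm, sub_self, zero_div]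
    have e1 : ∑ j ∈ Finset.range (4 * k), (a j χ : ℂ) * (w v : ℂ) ^ j = (χ : G → ℂ) v := by
      simp only [← ha, mul_assoc, ← Finset.mul_sum, Finset.sum_mul]
      rw [Finset.sum_comm]
      have e2 : ∀ u : zpowers x, ∑ j ∈ Finset.range (4 * k), (χ : G → ℂ) u * (((w u : ℂ) ^ (j : ℤ) - 1) *
          (w v : ℂ) ^ j) = if u = v⁻¹ then (χ : G → ℂ) u * (4 * k : ℕ) else 0 := fun u => by
        simp only [← Finset.mul_sum, sub_mul, one_mul, zpow_natCast, ← mul_pow, Finset.sum_sub_distrib,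
          ← Units.val_mul, ← map_mul, geo, if_neg hv1, sub_zero, mul_eq_one_iff_eq_inv, mul_ite, mul_zero]
      simp only [e2, Finset.sum_ite_eq', Finset.mem_univ, if_true, coe_inv, hi]
      field_simp
    have e2 : ∀ j : ℕ, j ≤ 4 * k → a ((4 * k - j : ℕ) : ℤ) χ = a j χ := fun j hj => by
      rw [← Int.cast_inj (α := ℂ), ← ha, ← ha, ← Equiv.sum_comp (Equiv.inv (zpowers x))]
      congr 1
      refine Finset.sum_congr rfl fun u _ => ?_
      simp only [Equiv.inv_apply, coe_inv, hi, map_inv, Units.val_inv_eq_inv_val, zpow_natCast]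
      rw [inv_pow, pow_sub₀ _ (w u).ne_zero hj, wm, one_mul, inv_inv]
    have e3 : a 0 χ = 0 := by
      rw [← Int.cast_inj (α := ℂ), ← ha]; simp
    obtain ⟨r, hr⟩ : ∃ r, 2 * k = r + 1 := ⟨2 * k - 1, by omega⟩
    have e4 : (w v : ℂ) = ζ ^ l := w1 l
    have e5 : ζ ^ (2 * k) = -1 := (hζ.pow (by omega) (by ring : 4 * k = 2 * k * 2)).eq_neg_one_of_two_right
    change (χ : G → ℂ) v = _
    rw [← e1, show 4 * k = (r + 1) + (r + 1) by omega, Finset.sum_range_add, Finset.sum_range_succ',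
      Finset.sum_range_succ', ← Finset.sum_range_reflect (fun j => (a (r + 1 + (j + 1) : ℕ) χ : ℂ) *
        (w v : ℂ) ^ (r + 1 + (j + 1))),
      Fin.sum_univ_eq_sum_range (fun j => (a (j + 1) χ : ℂ) * (ζ ^ ((j + 1) * l) + (ζ ^ ((j + 1) * l))⁻¹)),
      show 2 * k - 1 = r by omega, Nat.cast_zero, e3, add_zero, ← hr, e4, ← pow_mul ζ l (2 * k), mul_comm l,
      pow_mul ζ (2 * k) l, e5]
    simp only [mul_add, Finset.sum_add_distrib]
    have e6 : ∑ j ∈ Finset.range r, (a ((2 * k + (r - 1 - j + 1) : ℕ) : ℤ) χ : ℂ) *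
        (ζ ^ l) ^ (2 * k + (r - 1 - j + 1)) = ∑ j ∈ Finset.range r, (a (j + 1) χ : ℂ) * (ζ ^ ((j + 1) * l))⁻¹ := by
      refine Finset.sum_congr rfl fun j hj => ?_
      rw [Finset.mem_range] at hj
      rw [show 2 * k + (r - 1 - j + 1) = 4 * k - (j + 1) by omega, e2 _ (by omega), ← e4,
        pow_sub₀ _ (w v).ne_zero (by omega), wm, one_mul, e4, ← pow_mul, mul_comm l]
      push_cast; rfl
    rw [e6]
    simp only [← pow_mul, mul_comm l]
    push_cast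
    ring
  · rw [pair]
    congr 1
    symm
    refine Finset.sum_bij (fun l _ => (⟨x ^ l, pow_mem (mem_zpowers x) l⟩ : zpowers x)) (by simp)
      (fun l hl l' hl' e => ?_) (fun u _ => ?_) fun l _ => by rw [w1]
    · rw [← h.ord, Finset.mem_range] at hl hl'
      exact pow_injOn_Iio_orderOf hl hl' (congrArg Subtype.val e)
    · obtain ⟨l, hl, e⟩ := Finset.mem_image.1 (mem_zpowers_iff_mem_range_orderOf.1 u.2)
      exact ⟨l, h.ord ▸ hl, Subtype.ext e⟩

open Classical in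
theorem dih_block (M : Ideal AlgInt) [PMod 2 M] {ζ : ℂ} (hζ : IsPrimitiveRoot ζ (4 * k)) :
    ∃ (χ₁ χ₂ χ₃ : IrrCharacter G) (χ' : Fin (2 * k - 1) → IrrCharacter G) (δ₁ δ₂ δ₃ : ℤ),
      (δ₁ = 1 ∨ δ₁ = -1) ∧ (δ₂ = 1 ∨ δ₂ = -1) ∧ (δ₃ = 1 ∨ δ₃ = -1) ∧ Function.Injective χ' ∧
      χ₁ ≠ oneIrr G ∧ χ₂ ≠ oneIrr G ∧ χ₃ ≠ oneIrr G ∧ χ₁ ≠ χ₂ ∧ χ₁ ≠ χ₃ ∧ χ₂ ≠ χ₃ ∧
      (∀ j, χ' j ≠ χ₁ ∧ χ' j ≠ χ₂ ∧ χ' j ≠ χ₃ ∧ χ' j ≠ oneIrr G) ∧
      (∀ χ, χ ∈ principalBlock M G ↔ χ = oneIrr G ∨ χ = χ₁ ∨ χ = χ₂ ∨ χ = χ₃ ∨ ∃ j, χ = χ' j) ∧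
      (∀ l : ℕ, x ^ l ≠ 1 → (χ₁ : G → ℂ) (x ^ l) = δ₁ ∧ (χ₂ : G → ℂ) (x ^ l) = δ₂ * (-1) ^ (l + 1) ∧
        (χ₃ : G → ℂ) (x ^ l) = δ₃ * (-1) ^ (l + 1) ∧ ∀ j : Fin (2 * k - 1),
          (χ' j : G → ℂ) (x ^ l) = δ₁ * (ζ ^ (((j : ℕ) + 1) * l) + (ζ ^ (((j : ℕ) + 1) * l))⁻¹)) ∧
      (∀ ρ : G, ¬ 2 ∣ orderOf ρ → ∀ j, 1 + δ₁ * (χ₁ : G → ℂ) ρ = -δ₂ * (χ₂ : G → ℂ) ρ - δ₃ * (χ₃ : G → ℂ) ρ ∧
        1 + δ₁ * (χ₁ : G → ℂ) ρ = δ₁ * (χ' j : G → ℂ) ρ) ∧
      ∀ (j : Fin (2 * k - 1)) (f : IrrCharacter G → ℂ), -f (oneIrr G) - δ₁ * f χ₁ + δ₁ * f (χ' j) =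
        ((4 * k : ℕ) : ℂ)⁻¹ * ∑ l ∈ Finset.range (4 * k), ((ζ ^ l) ^ ((j : ℤ) + 1) - 1) *
          ∑ χ : IrrCharacter G, if χ ∈ principalBlock M G then (χ : G → ℂ) (x ^ l) * f χ else 0 := by
  obtain ⟨b, b0, b1, b2, b3, b4, b5⟩ := dih_coeff h hy hS M hζ
  have hk := h.pos
  have nd : ∀ i : ℤ, 0 < i → i < 4 * k → ¬ (4 * k : ℤ) ∣ i := fun i h1 h2 e => by
    have := Int.le_of_dvd h1 e
    omega
  have nd' : ∀ i : ℤ, i ≠ 0 → -(4 * k) < i → i < 4 * k → ¬ (4 * k : ℤ) ∣ i := fun i h0 h1 h2 e => by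
    rcases lt_or_gt_of_ne h0 with h3 | h3
    · exact nd (-i) (by omega) (by omega) (dvd_neg.2 e)
    · exact nd i h3 h2 e
  have n1 : ∀ j : Fin (2 * k - 1), ¬ (4 * k : ℤ) ∣ (j : ℤ) + 1 := fun j => nd _ (by omega) (by omega)
  have n2 : ¬ (4 * k : ℤ) ∣ 2 * k := nd _ (by omega) (by omega)
  have up : ∀ i j : ℤ, ¬ (4 * k : ℤ) ∣ i → ¬ (4 * k : ℤ) ∣ j → ∑ χ, Function.update (b i) (oneIrr G) 0 χ *
      Function.update (b j) (oneIrr G) 0 χ =
        (if (4 * k : ℤ) ∣ i + j then 1 else 0) + (if (4 * k : ℤ) ∣ i - j then 1 else 0) + 1 := fun i j h1 h2 => by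
    rw [sum_update_mul, Function.update_self, mul_zero, sub_zero]
    simp only [mul_comm (b i _)]
    rw [sum_update_mul]
    simp only [mul_comm (b j _)]
    rw [b2 i j h1 h2, b1 i h1, b1 j h2]; ring
  have dg : ∀ i : ℤ, ¬ (4 * k : ℤ) ∣ i → ∑ χ, Function.update (b i) (oneIrr G) 0 χ *
      (charDegree (χ : G → ℂ) : ℤ) = 1 := fun i h1 => by
    have e := b3 i 1 reg_one
    simp only [← IsIrrCharacter.cast_charDegree (Subtype.property _)] at e
    have e' : ∑ χ, b i χ * (charDegree (χ : G → ℂ) : ℤ) = 0 := by exact_mod_cast e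
    rw [sum_update_mul, e', b1 i h1, charDegree_eq (n := 1) (by simp [oneIrr])]; simp
  have : Nonempty (Fin (2 * k - 1)) := ⟨⟨0, by omega⟩⟩
  obtain ⟨δ, s, e, c1, c2, c3, c4, c5, c6⟩ := lattice_dih (J := Fin (2 * k - 1)) (by simp; omega)
    (c := fun j => Function.update (b (j + 1)) (oneIrr G) 0) (c₀ := Function.update (b (2 * k)) (oneIrr G) 0)
    (d := fun χ => charDegree (χ : G → ℂ)) (fun χ => by exact_mod_cast χ.2.charDegree_pos)
    (by simp only [sq]; rw [up _ _ n2 n2, if_pos ⟨1, by ring⟩, if_pos (by simp)]; rfl) (dg _ n2)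
    (fun j => by
      simp only [sq]; rw [up _ _ (n1 j) (n1 j), if_neg (nd _ (by omega) (by omega)), if_pos (by simp)]; rfl)
    (fun j => dg _ (n1 j))
    (fun j j' hj => by
      rw [up _ _ (n1 j) (n1 j'), if_neg (nd _ (by omega) (by omega)),
        if_neg (nd' _ (by omega) (by omega) (by omega))]; rfl)
    (fun j => by
      rw [up _ _ (n1 j) n2, if_neg (nd _ (by omega) (by omega)),
        if_neg (nd' _ (by omega) (by omega) (by omega))]; rfl)
  have hδ : δ ≠ 0 := by omega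
  have nz : ∀ i χ, Function.update (b i) (oneIrr G) 0 χ ≠ 0 → χ ≠ oneIrr G ∧ χ ∈ principalBlock M G :=
    fun i χ h1 => by
      have h2 : χ ≠ oneIrr G := by rintro rfl; simp at h1
      rw [Function.update_of_ne h2] at h1
      exact ⟨h2, by_contra fun e' => h1 (b0 _ _ e')⟩
  obtain ⟨s₂, s₃, d1, d2, d3, d4⟩ := int_norm_two (c := Function.update
    (Function.update (b (2 * k)) (oneIrr G) 0) s 0) (by
      rw [sum_update_sq, c4]; simp only [sq]
      rw [up _ _ n2 n2, if_pos ⟨1, by ring⟩, if_pos (by simp)]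
      rcases c1 with e | e <;> rw [e] <;> rfl)
  have e2 : s ≠ s₂ := by rintro rfl; simp at d2
  have e3 : s ≠ s₃ := by rintro rfl; simp at d3
  rw [Function.update_of_ne e2.symm] at d2
  rw [Function.update_of_ne e3.symm] at d3
  have f1 := nz _ s (by rw [c4]; omega)
  have f2 := nz (2 * k) s₂ (by omega)
  have f3 := nz (2 * k) s₃ (by omega)
  have f4 := fun j => nz _ (e j) (by rw [(c6 j).2.1]; exact hδ)
  have g2 : ∀ j, e j ≠ s₂ := fun j e' => by have := c5 j; rw [e'] at this; omega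
  have g3 : ∀ j, e j ≠ s₃ := fun j e' => by have := c5 j; rw [e'] at this; omega
  rw [Function.update_of_ne f2.1] at d2
  rw [Function.update_of_ne f3.1] at d3
  rw [Function.update_of_ne f1.1] at c4
  have d5 : ∀ χ, χ ≠ oneIrr G → χ ≠ s → χ ≠ s₂ → χ ≠ s₃ → b (2 * k) χ = 0 := fun χ a1 a2 a3 a4 => by
    have := d4 χ a3 a4
    rwa [Function.update_of_ne a2, Function.update_of_ne a1] at this
  have c7 : ∀ j : Fin (2 * k - 1), b (j + 1) s = -δ := fun j => by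
    have := (c6 j).1
    rwa [Function.update_of_ne f1.1] at this
  have c8 : ∀ j : Fin (2 * k - 1), b (j + 1) (e j) = δ := fun j => by
    have := (c6 j).2.1
    rwa [Function.update_of_ne (f4 j).1] at this
  have c9 : ∀ (j : Fin (2 * k - 1)) χ, χ ≠ oneIrr G → χ ≠ s → χ ≠ e j → b (j + 1) χ = 0 :=
    fun j χ a1 a2 a3 => by
      have := (c6 j).2.2 χ a2 a3
      rwa [Function.update_of_ne a1] at this
  have sum1 : ∀ (j : Fin (2 * k - 1)) (f : IrrCharacter G → ℂ), ∑ χ, (b (j + 1) χ : ℂ) * f χ =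
      -f (oneIrr G) - δ * f s + δ * f (e j) := fun j f => by
    rw [← Finset.sum_subset (Finset.subset_univ {oneIrr G, s, e j}) (fun χ _ hχ => by
      simp only [Finset.mem_insert, Finset.mem_singleton, not_or] at hχ
      rw [c9 j χ hχ.1 hχ.2.1 hχ.2.2]; simp),
      Finset.sum_insert (by simp [f1.1.symm, (f4 j).1.symm]), Finset.sum_pair (c3 j).symm, b1 _ (n1 j), c7, c8]
    push_cast; ring
  have sum2 : ∀ f : IrrCharacter G → ℂ, ∑ χ, (b (2 * k) χ : ℂ) * f χ =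
      -f (oneIrr G) - δ * f s + b (2 * k) s₂ * f s₂ + b (2 * k) s₃ * f s₃ := fun f => by
    rw [← Finset.sum_subset (Finset.subset_univ {oneIrr G, s, s₂, s₃}) (fun χ _ hχ => by
      simp only [Finset.mem_insert, Finset.mem_singleton, not_or] at hχ
      rw [d5 χ hχ.1 hχ.2.1 hχ.2.2.1 hχ.2.2.2]; simp),
      Finset.sum_insert (by simp [f1.1.symm, f2.1.symm, f3.1.symm]), Finset.sum_insert (by simp [e2, e3]),
      Finset.sum_pair d1, b1 _ n2, c4]
    push_cast; ring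
  refine ⟨s, s₂, s₃, e, δ, -b (2 * k) s₂, -b (2 * k) s₃, c1, by omega, by omega, c2, f1.1, f2.1, f3.1, e2, e3,
    d1, fun j => ⟨c3 j, g2 j, g3 j, (f4 j).1⟩, fun χ => ⟨fun hχ => ?_, ?_⟩, fun l hl => ⟨?_, ?_, ?_, fun j => ?_⟩,
    fun ρ hρ j => ⟨?_, ?_⟩, fun j f => by rw [← sum1, b5]⟩
  · by_contra e'
    push Not at e'
    apply dih_ne_zero h hy hS M hχ
    rw [b4 χ hχ _ h.z_ne_one, d5 χ e'.1 e'.2.1 e'.2.2.1 e'.2.2.2.1]
    simp [fun j => c9 j χ e'.1 e'.2.1 (e'.2.2.2.2 j)]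
  · rintro (rfl | rfl | rfl | rfl | ⟨j, rfl⟩)
    exacts [oneIrr_mem, f1.2, f2.2, f3.2, (f4 j).2]
  · have a1 := b4 _ oneIrr_mem l hl
    simp only [b1 _ n2, b1 _ (n1 _)] at a1
    rw [b4 _ f1.2 l hl, c4]
    simp only [c7, ← Finset.mul_sum] at a1 ⊢
    change 1 = _ at a1
    push_cast at a1 ⊢
    linear_combination -δ * a1
  · rw [b4 _ f2.2 l hl]
    simp [fun j => c9 j s₂ f2.1 e2.symm (g2 j).symm, pow_succ]
  · rw [b4 _ f3.2 l hl]
    simp [fun j => c9 j s₃ f3.1 e3.symm (g3 j).symm, pow_succ]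
  · rw [b4 _ (f4 j).2 l hl, d5 _ (f4 j).1 (c3 j) (g2 j) (g3 j), Finset.sum_eq_single j
      (fun j' _ hj => by rw [c9 j' _ (f4 j).1 (c3 j) (c2.ne hj.symm)]; simp) (by simp), c8]
    simp
  · have a1 := (sum2 _).symm.trans (b3 _ ρ hρ)
    change -1 - _ + _ + _ = _ at a1
    push_cast
    linear_combination -a1
  · have a1 := (sum1 j _).symm.trans (b3 _ ρ hρ)
    change -1 - _ + _ = _ at a1
    linear_combination -a1

end dih

end Cfsg.Agent.B
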