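import Cfsg.Agent.B.Prin
import Cfsg.Agent.B.Contr
import Cfsg.Agent.H3.CTI0
import Cfsg.Agent.H3.TI

/-!
# Principal blocks for abelian Sylow subgroups with fixed point free automizer (Brauer).
-/

set_option autoImplicit false
set_option linter.unusedSectionVars false

namespace Cfsg.Agent.B

open MonoidAlgebra Subgroup Cfsg.Agent.H3 Cfsg.Agent.H2
open scoped ComplexConjugate

variable {G : Type*} [Group G] [Finite G] {p : ℕ} [hp : Fact p.Prime]

theorem lin_fourier {A : Type*} [Group A] [Fintype A] [IsMulCommutative A] (f : A → ℂ) (y : A) :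
    ∑ ψ : Lin A, classInner f ψ * ψ y = f y := by
  classical
  simp only [classInner_def, Finset.mul_sum, Finset.sum_mul]
  rw [Finset.sum_comm]
  have : ∀ x, ∑ ψ : Lin A, (Nat.card A : ℂ)⁻¹ * (f x * conj (ψ x)) * ψ y =
      (Nat.card A : ℂ)⁻¹ * f x * if y = x then (Nat.card A : ℂ) else 0 := fun x => by
    rw [← sum_lin_mul_conj, Finset.mul_sum]; exact Finset.sum_congr rfl fun _ _ => by ring
  simp only [this, mul_ite, mul_zero, Finset.sum_ite_eq, Finset.mem_univ, if_true]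
  have : (Nat.card A : ℂ) ≠ 0 := by simp
  field_simp

theorem sum_ite_orbit {E X V : Type*} [Fintype E] [Fintype X] [AddCommMonoid V] (o : E → X) (ho : o.Injective)
    (f : X → V) [DecidablePred fun x => ∃ σ, o σ = x] : ∑ x, (if ∃ σ, o σ = x then f x else 0) = ∑ σ, f (o σ) := by
  classical
  rw [← Finset.sum_filter, ← Finset.sum_image (s := Finset.univ) (g := o) (fun _ _ _ _ h => ho h)]
  congr 1
  ext x; simp

/-- the automizer -/
abbrev aut (P : Subgroup G) : Subgroup (MulAut P) := P.normalizerMonoidHom.range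

noncomputable instance instFintypeAut (P : Subgroup G) : Fintype (aut P) := Fintype.ofFinite _

theorem mem_aut {P : Subgroup G} {σ : MulAut P} :
    σ ∈ aut P ↔ ∃ n ∈ normalizer (P : Set G), ∀ w : P, (σ w : G) = n * w * n⁻¹ :=
  ⟨fun ⟨n, h⟩ => ⟨n, n.2, fun _ => h ▸ rfl⟩, fun ⟨n, hn, h⟩ => ⟨⟨n, hn⟩, MulEquiv.ext fun w => Subtype.ext (h w).symm⟩⟩

theorem card_aut (P : Subgroup G) : Nat.card (aut P) = (centralizer (P : Set G)).relIndex (normalizer (P : Set G)) := by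
  rw [← index_ker, normalizerMonoidHom_ker, relIndex]

/-- action on linear characters -/
abbrev la {P : Subgroup G} (ψ : Lin P) (σ : aut P) : Lin P := ψ.comp (σ : MulAut P).toMonoidHom

variable (p) in
structure FB (P : Subgroup G) : Prop where
  syl : SylIn p P ⊤
  ab : IsMulCommutative P
  free : ∀ σ : aut P, ∀ y : P, y ≠ 1 → σ.1 y = y → σ = 1

variable {M : Ideal AlgInt} [hM : PMod p M] {P : Subgroup G}

variable (M) in
/-- block component of the induced function -/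
noncomputable def vv [Fintype G] (ψ : Lin P) : G → ℂ := blockPart (principalBlock M G) (indFun P (⇑ψ - ⇑(1 : Lin P)))

theorem isGen_vv [Fintype G] (ψ : Lin P) : IsGeneralizedCharacter G (vv M ψ) :=
  IsGeneralizedCharacter.blockPart (ψ.isGen.sub (1 : Lin P).isGen).ind _

open Classical in
theorem inner_vv [Fintype G] [Fintype P] (ψ : Lin P) (χ : IrrCharacter G) : classInner (vv M ψ) χ =
    if χ ∈ principalBlock M G then classInner (⇑ψ - ⇑(1 : Lin P)) fun y : P => χ.1 y else 0 := by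
  rw [vv, classInner_blockPart, classInner_indFun_left _ χ.2.isClassFunction]

open Classical in
theorem vv_apply [Fintype G] [Fintype P] (ψ : Lin P) (g : G) : vv M ψ g = (Nat.card P : ℂ)⁻¹ * ∑ x : P, (ψ x - 1) *
    ∑ χ : IrrCharacter G, if χ ∈ principalBlock M G then χ.1 g * χ.1 (x : G)⁻¹ else 0 := by
  simp only [vv, blockPart_eq, Finset.mul_sum]
  rw [Finset.sum_comm]
  refine Finset.sum_congr rfl fun χ _ => ?_
  split_ifs
  · rw [classInner_indFun_left _ χ.2.isClassFunction, classInner_eq_inv _ (χ.2.isCharacter.res P).isGen,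
      Finset.mul_sum, Finset.sum_mul]
    exact Finset.sum_congr rfl fun x _ => by simp; ring
  · simp

theorem vv_reg [Fintype G] (hP : IsPGroup p P) (ψ : Lin P) {g : G} (hg : ¬ p ∣ orderOf g) : vv M ψ g = 0 := by
  have := Fintype.ofFinite P
  rw [vv_apply, Finset.sum_eq_zero, mul_zero]
  intro x _
  by_cases hx : x = 1
  · simp [hx]
  · rw [isPBlock_principal.closed.orth (isPPart_one_iff.2 hg) (pElt_of_mem hP x.2).isPPart_self (by simpa [eq_comm] using hx),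
      mul_zero]

namespace FB
variable (h : FB p P)
include h

theorem le_cent : P ≤ centralizer (P : Set G) := fun x hx y hy =>
  congrArg Subtype.val (h.ab.is_comm.comm (⟨y, hy⟩ : P) ⟨x, hx⟩)

theorem fus {x y : P} : IsConj (x : G) y ↔ ∃ σ : aut P, σ.1 x = y := by
  refine ⟨fun hc => ?_, fun ⟨σ, h1⟩ => ?_⟩
  · obtain ⟨g, hg⟩ := isConj_iff.1 hc
    obtain ⟨n, -, hn, h2⟩ := h.syl.exists_normalizer_conj (mem_top g) (h.le_cent x.2) (hg ▸ h.le_cent y.2)
    exact ⟨⟨_, ⟨n, hn⟩, rfl⟩, Subtype.ext (h2.trans hg)⟩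
  · obtain ⟨n, -, h2⟩ := mem_aut.1 σ.2
    exact isConj_iff.2 ⟨n, by rw [← h2, h1]⟩

theorem sylC (y : P) : SylIn p P (centralizer {(y : G)}) :=
  h.syl.mono (mem_centralizer_comm.1 (h.le_cent y.2)) le_top

theorem pNil {y : P} (hy : y ≠ 1) : PNil p (centralizer {(y : G)}) :=
  (h.sylC y).pNil_of_normalizer_le fun n hn w hw => by
    have := h.free ⟨_, ⟨n, hn.2⟩, rfl⟩ y hy (Subtype.ext (by
      change n * y * n⁻¹ = y; rw [mem_centralizer_singleton_iff.1 hn.1, mul_inv_cancel_right]))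
    have : n * w * n⁻¹ = w := congrArg (fun σ : aut P => (σ.1 ⟨w, hw⟩ : G)) this
    rw [← this, inv_mul_cancel_right] ; nth_rw 1 [this]

theorem apply_eq {χ : IrrCharacter G} (hχ : χ ∈ principalBlock M G) {z : G} {y : P} (hz : IsPPart p z y) (hy : y ≠ 1) :
    χ.1 z = χ.1 y := by
  obtain ⟨x, s, rfl, hc, hx, hs⟩ := exists_pdecomp (p := p) z
  obtain rfl := hz.unique (isPPart_mul hx hs hc)
  exact apply_mul_of_pNil hx (h.pNil hy) hc hs hχ

theorem inj_elt {y : P} (hy : y ≠ 1) : Function.Injective fun σ : aut P => σ.1 y := fun σ τ h1 => by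
  have := h.free (τ⁻¹ * σ) y hy (by simp only at h1; simp [h1])
  exact (inv_mul_eq_one.1 this).symm

theorem inj_lin {ψ : Lin P} (hψ : ψ ≠ 1) : Function.Injective (la ψ) := fun σ τ h1 => by
  by_contra hne
  have := h.ab
  have h2 : ∀ y, ψ ((σ * τ⁻¹).1 y) = ψ y := fun y => by simpa using DFunLike.congr_fun h1 (τ⁻¹.1 y)
  have h3 : Function.Injective fun y : P => y⁻¹ * (σ * τ⁻¹).1 y := fun x y h4 => by
    by_contra h5
    refine hne (mul_inv_eq_one.1 (h.free _ (x * y⁻¹) (mt mul_inv_eq_one.1 h5) ?_))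
    simp only at h4
    rw [map_mul, map_inv, mul_inv_eq_iff_eq_mul, mul_assoc, ← h4, mul_inv_cancel_left]
  refine hψ (Lin.ext fun y => ?_)
  obtain ⟨x, rfl⟩ := Finite.surjective_of_injective h3 y
  rw [map_mul, h2, ← map_mul, inv_mul_cancel, map_one, Lin.one_apply]

open Classical in
theorem col {x y : P} (hy : y ≠ 1) :
    ∑ χ : IrrCharacter G, (if χ ∈ principalBlock M G then χ.1 y * χ.1 (x : G)⁻¹ else 0) =
      if ∃ σ : aut P, σ.1 y = x then (Nat.card P : ℂ) else 0 := by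
  split_ifs with h1
  · have h2 := h.fus.2 h1
    rw [(h.sylC y).card_eq_pow, ← sum_principal_of_pNil (M := M) (pElt_of_mem h.syl.pgrp y.2) (h.pNil hy)]
    exact Finset.sum_congr rfl fun χ _ => by rw [χ.2.isClassFunction.eq_of_isConj (show IsConj (y : G)⁻¹ (x : G)⁻¹ from by
      obtain ⟨c, hc⟩ := isConj_iff.1 h2
      exact isConj_iff.2 ⟨c, by rw [← hc]; group⟩)]
  · exact isPBlock_principal.closed.orth (pElt_of_mem h.syl.pgrp y.2).isPPart_self
      (pElt_of_mem h.syl.pgrp x.2).isPPart_self (mt h.fus.1 h1)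

theorem vv_res [Fintype G] (ψ : Lin P) : (fun y : P => vv M ψ y) = ∑ σ : aut P, (⇑(la ψ σ) - ⇑(1 : Lin P)) := by
  classical
  have := Fintype.ofFinite P
  ext y
  by_cases hy : y = 1
  · subst hy; simp [vv_reg h.syl.pgrp ψ reg_one]
  rw [vv_apply]
  simp only [h.col hy, mul_ite, mul_zero]
  rw [sum_ite_orbit _ (h.inj_elt hy), ← Finset.sum_mul, mul_comm, mul_assoc, mul_inv_cancel₀ (by simp), mul_one]
  simp

theorem la_ne {ψ : Lin P} (hψ : ψ ≠ 1) (σ : aut P) : la ψ σ ≠ 1 := fun h1 =>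
  hψ (Lin.ext fun y => by simpa using DFunLike.congr_fun h1 (σ⁻¹.1 y))

open Classical in
theorem gram [Fintype G] {ψ ψ' : Lin P} (hψ : ψ ≠ 1) (hψ' : ψ' ≠ 1) :
    classInner (vv M ψ) (vv M ψ') = Nat.card (aut P) + if ∃ σ, la ψ σ = ψ' then 1 else 0 := by
  have := Fintype.ofFinite P
  have hc : ∀ ψ : Lin P, IsClassFunction G (indFun P (⇑ψ - ⇑(1 : Lin P))) := fun ψ =>
    (ψ.isGen.sub (1 : Lin P).isGen).ind.isClassFunction
  rw [vv, vv, ← classInner_blockPart_left _ (isClassFunction_blockPart _ _) (hc _), blockPart_blockPart, Set.inter_self,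
    classInner_indFun_right _ (isClassFunction_blockPart _ _)]
  change classInner (fun y : P => vv M ψ y) _ = _
  rw [h.vv_res, classInner_sum_left]
  simp only [classInner_sub_left, classInner_sub_right, Lin.inner_eq, h.la_ne hψ, hψ'.symm, if_false, if_true]
  have := sum_ite_orbit _ (h.inj_lin hψ) fun x => if x = ψ' then (1 : ℂ) else 0
  simp only [sub_zero, zero_sub, sub_neg_eq_add, Finset.sum_add_distrib, ← this, ← ite_and]
  rw [add_comm, Finset.sum_eq_single ψ'] <;> simp +contextual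

theorem res_eq [Fintype G] {χ : IrrCharacter G} (hχ : χ ∈ principalBlock M G) {y : P} (hy : y ≠ 1) :
    χ.1 y = ∑ ψ : Lin P, conj (classInner (vv M ψ) χ) * ψ y := by
  have := Fintype.ofFinite P
  have := h.ab
  simp only [inner_vv, hχ, if_true, classInner_sub_left, map_sub, conj_classInner, sub_mul, Finset.sum_sub_distrib,
    ← Finset.mul_sum, sum_lin hy, lin_fourier, mul_zero, sub_zero]

theorem rel_symm {ψ ψ' : Lin P} (h1 : ∃ σ, la ψ σ = ψ') : ∃ σ, la ψ' σ = ψ :=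
  let ⟨σ, h2⟩ := h1; ⟨σ⁻¹, h2 ▸ Lin.ext fun y => by simp⟩

theorem vv_eq_iff [Fintype G] {ψ ψ' : Lin P} (hψ : ψ ≠ 1) (hψ' : ψ' ≠ 1) :
    vv M ψ = vv M ψ' ↔ ∃ σ, la ψ σ = ψ' := by
  have h1 := h.gram (M := M) hψ hψ
  rw [if_pos ⟨1, rfl⟩] at h1
  refine ⟨fun h2 => ?_, fun h2 => ?_⟩
  · have h3 := h.gram (M := M) hψ hψ'
    rw [← h2, h1] at h3
    by_contra h4
    simp [h4] at h3
  · refine sub_eq_zero.1 (classInner_self_eq_zero.1 ?_)
    simp only [classInner_sub_left, classInner_sub_right, h1, h.gram hψ hψ', h.gram hψ' hψ, h.gram hψ' hψ', if_pos h2,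
      if_pos (h.rel_symm h2), if_pos (show ∃ σ, la ψ' σ = ψ' from ⟨1, rfl⟩)]
    ring

end FB

open Classical in
variable (p M) in
/-- the exceptional characters -/
structure FD [Fintype G] (P : Subgroup G) (δ d : ℤ) (ζ : Lin P → IrrCharacter G) (w : IrrCharacter G → ℤ) : Prop
    extends FB p P where
  sgn : δ = 1 ∨ δ = -1
  mem : ∀ ψ, ψ ≠ 1 → ζ ψ ∈ principalBlock M G
  inj : ∀ ψ ψ', ψ ≠ 1 → ψ' ≠ 1 → (ζ ψ = ζ ψ' ↔ ∃ σ, la ψ σ = ψ')
  coef : ∀ ψ : Lin P, ψ ≠ 1 → ∀ χ : IrrCharacter G, classInner (vv M ψ) χ = ((if χ = ζ ψ then δ else 0) - w χ : ℤ)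
  wd : ∀ ψ, ψ ≠ 1 → w (ζ ψ) = d
  w0 : ∀ χ ∉ principalBlock M G, w χ = 0

theorem FB.card_fiber (h : FB p P) {X : Type*} {f : Lin P → X}
    (hf : ∀ ψ ψ', ψ ≠ 1 → ψ' ≠ 1 → (f ψ = f ψ' ↔ ∃ σ, la ψ σ = ψ')) :
    Nat.card (aut P) * Nat.card (f '' {ψ | ψ ≠ 1}) + 1 = Nat.card P := by
  classical
  have := h.ab
  have h1 := Finset.card_eq_sum_card_image f (Finset.univ.erase 1)
  rw [Finset.sum_congr rfl (g := fun _ => Nat.card (aut P)), Finset.sum_const, smul_eq_mul] at h1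
  · rw [← card_univ_lin (A := P), ← Finset.card_erase_add_one (Finset.mem_univ 1), h1, mul_comm, Nat.card_coe_set_eq,
      show f '' {ψ | ψ ≠ 1} = ↑(Finset.image f (Finset.univ.erase 1)) by ext x; simp, Set.ncard_coe_finset]
  · intro x hx
    obtain ⟨ψ, hψ, rfl⟩ := Finset.mem_image.1 hx
    rw [Nat.card_eq_fintype_card, ← Finset.card_univ, ← Finset.card_image_of_injective _ (h.inj_lin (by simpa using hψ))]
    congr 1
    ext ψ'
    simp only [Finset.mem_filter, Finset.mem_erase, Finset.mem_univ, and_true, Finset.mem_image, true_and] at hψ ⊢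
    exact ⟨fun h2 => (hf _ _ hψ h2.1).1 h2.2.symm, fun h2 => by
      have : ψ' ≠ 1 := h2.choose_spec ▸ h.la_ne hψ _
      exact ⟨this, ((hf _ _ hψ this).2 h2).symm⟩⟩

theorem FB.exists_fd [Fintype G] (h : FB p P) (hm : Nat.card (aut P) + 1 < Nat.card P) :
    ∃ δ d ζ w, FD p M P δ d ζ w := by
  classical
  have hc := h.card_fiber (f := vv M) fun _ _ => h.vv_eq_iff
  set S := vv M '' {ψ : Lin P | ψ ≠ 1}
  have h2 : 1 < Nat.card S := by
    by_contra h2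
    have : Nat.card (aut P) * Nat.card S ≤ Nat.card (aut P) * 1 := Nat.mul_le_mul_left _ (by omega)
    omega
  have : Finite S := Nat.finite_of_card_ne_zero (by omega)
  have : Nontrivial S := Finite.one_lt_card_iff_nontrivial.1 h2
  obtain ⟨i₀⟩ : Nonempty S := inferInstance
  have hg : ∀ i j : S, classInner i.1 j.1 = Nat.card (aut P) + if i = j then 1 else 0 := by
    rintro ⟨_, ψ, hψ, rfl⟩ ⟨_, ψ', hψ', rfl⟩
    simp only [h.gram hψ hψ', Subtype.ext_iff, h.vv_eq_iff hψ hψ']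
  have hgen : ∀ i : S, IsGeneralizedCharacter G i.1 := by rintro ⟨_, ψ, -, rfl⟩; exact isGen_vv ψ
  have hout : ∀ i : S, ∀ χ ∉ principalBlock M G, classInner i.1 χ.1 = 0 := by
    rintro ⟨_, ψ, -, rfl⟩ χ hχ
    have := Fintype.ofFinite P
    rw [inner_vv, if_neg hχ]
  obtain ⟨ε, hε, μ, h3, h4, h5⟩ := exists_exceptional i₀ (fun i => i.1 - i₀.1) (sub_self _)
    (fun i => (hgen i).sub (hgen _)) (fun i => by
      obtain ⟨_, ψ, -, rfl⟩ := i
      obtain ⟨_, ψ', -, rfl⟩ := i₀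
      simp [vv_reg h.syl.pgrp _ reg_one]) fun i j hi hj => by
      simp only [classInner_sub_left, classInner_sub_right, hg, hi, hj.symm, if_true, if_false]
      split_ifs <;> ring
  obtain ⟨δ, rfl, hδ⟩ : ∃ δ : ℤ, (δ : ℂ) = ε ∧ (δ = 1 ∨ δ = -1) := by
    rcases hε with rfl | rfl
    exacts [⟨1, by simp⟩, ⟨-1, by simp⟩]
  let ν : S → IrrCharacter G := fun i => ⟨μ i, h3 i⟩
  have hν : ∀ i j, ν i = ν j ↔ i = j := fun i j => ⟨fun h => h4 (congrArg Subtype.val h), congrArg _⟩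
  obtain ⟨c, hc1, -⟩ := (hgen i₀).exists_int_coeffs
  have h6 : ∀ (i : S) (χ : IrrCharacter G), classInner i.1 χ.1 =
      ((if χ = ν i then δ else 0) - ((if χ = ν i₀ then δ else 0) - c χ) : ℤ) := fun i χ => by
    have := congrArg (classInner · χ.1) (h5 i)
    simp only [classInner_sub_left, classInner_smul_left, hc1] at this
    rw [show μ i = (ν i).1 from rfl, show μ i₀ = (ν i₀).1 from rfl, irr_inner, irr_inner] at this
    push_cast
    simp only [eq_comm (a := χ)]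
    split_ifs at this ⊢ <;> linear_combination this
  have h7 : ∀ i, ν i ∈ principalBlock M G := fun i => by
    by_contra h7
    obtain ⟨j, hj⟩ := exists_ne i
    have h8 := (hout i _ h7).symm.trans (h6 i _)
    have h9 := (hout j _ h7).symm.trans (h6 j _)
    simp only [hν, hj.symm, if_true, if_false] at h8 h9
    have := h8.symm.trans h9
    norm_cast at this
    omega
  have h8 : ∀ i, classInner i₀.1 (μ i) + (if i = i₀ then 0 else δ) = classInner i₀.1 (μ i₀) := fun i => by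
    split_ifs with hi
    · simp [hi]
    have := congrArg (classInner i₀.1) (h5 i)
    simp only [classInner_sub_right, classInner_smul_right, hg, Ne.symm hi, if_true, if_false, map_intCast] at this
    rcases hδ with rfl | rfl <;> push_cast at this ⊢
    · linear_combination -this
    · linear_combination this
  refine ⟨δ, δ - c (ν i₀), fun ψ => if hψ : ψ ≠ 1 then ν ⟨_, ψ, hψ, rfl⟩ else ν i₀,
    fun χ => (if χ = ν i₀ then δ else 0) - c χ, h, hδ, fun ψ hψ => ?_, fun ψ ψ' hψ hψ' => ?_, fun ψ hψ χ => ?_,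
    fun ψ hψ => ?_, fun χ hχ => ?_⟩
  · rw [dif_pos hψ]; exact h7 _
  · rw [dif_pos hψ, dif_pos hψ', hν, Subtype.ext_iff]; exact h.vv_eq_iff hψ hψ'
  · rw [dif_pos hψ]; convert h6 ⟨_, ψ, hψ, rfl⟩ χ
  · rw [dif_pos hψ]
    have := h8 ⟨_, ψ, hψ, rfl⟩
    erw [hc1 (ν _), hc1 (ν _)] at this
    simp only [hν]
    split_ifs at this ⊢ <;> norm_cast at this <;> omega
  · have := (hc1 χ).symm.trans (hout i₀ χ hχ)
    norm_cast at this
    rw [this, if_neg fun h9 : χ = ν i₀ => hχ (h9 ▸ h7 _), sub_zero]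

theorem rel_iff {ψ ψ' : P →* ℂˣ} : (∃ n : G, n ∈ normalizer (P : Set G) ∧
    ∀ w w' : P, (w' : G) = n * w * n⁻¹ → ψ' w' = ψ w) ↔ ∃ σ, la (Lin.mk ψ) σ = Lin.mk ψ' := by
  refine ⟨fun ⟨n, hn, h⟩ => ⟨(⟨_, ⟨n, hn⟩, rfl⟩ : aut P)⁻¹, Lin.ext fun y => congrArg Units.val (h _ y ?_).symm⟩,
    fun ⟨σ, h⟩ => ?_⟩
  · exact congrArg Subtype.val ((P.normalizerMonoidHom ⟨n, hn⟩).apply_symm_apply y).symm
  · obtain ⟨n, hn, h1⟩ := mem_aut.1 σ⁻¹.2
    refine ⟨n, hn, fun w w' h2 => Units.ext ?_⟩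
    obtain rfl : w' = σ⁻¹.1 w := Subtype.ext (h2.trans (h1 w).symm)
    simpa using (DFunLike.congr_fun h (σ⁻¹.1 w)).symm

theorem FB.finsum_rel (h : FB p P) {ψ : P →* ℂˣ} (hψ : ψ ≠ 1) (y : P) :
    ∑ᶠ ψ' ∈ {ψ' : P →* ℂˣ | ∃ n : G, n ∈ normalizer (P : Set G) ∧ ∀ w w' : P, (w' : G) = n * w * n⁻¹ → ψ' w' = ψ w},
      ((ψ' y : ℂˣ) : ℂ) = ∑ σ : aut P, la (Lin.mk ψ) σ y := by
  classical
  simp only [rel_iff]
  exact (finsum_mem_eq_ite (X := Lin P) _ _).trans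
    ((Finset.sum_congr rfl fun _ _ => by congr).trans (sum_ite_orbit _ (h.inj_lin hψ) fun ψ' => ψ' y))

theorem fb_of (P : Sylow p G) (hab : IsMulCommutative P) (hf : ∀ y : G, y ∈ (P : Subgroup G) → y ≠ 1 →
    centralizer {y} ⊓ normalizer ((P : Subgroup G) : Set G) = centralizer ((P : Subgroup G) : Set G)) :
    FB p (P : Subgroup G) :=
  ⟨sylIn_top P, hab, fun σ y hy h => by
    obtain ⟨n, hn, h1⟩ := mem_aut.1 σ.2
    have : n ∈ centralizer ((P : Subgroup G) : Set G) := hf y y.2 (by simpa using hy) ▸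
      ⟨mem_centralizer_singleton_iff.2 (by rw [← mul_inv_eq_iff_eq_mul, ← h1, h]), hn⟩
    exact Subtype.ext (MulEquiv.ext fun w => Subtype.ext (by rw [h1, ← this w w.2]; simp))⟩

namespace FD
variable [Fintype G] {δ d : ℤ} {ζ : Lin P → IrrCharacter G} {w : IrrCharacter G → ℤ} (h : FD p M P δ d ζ w)
  {ψ : Lin P} {χ η η' : IrrCharacter G} {y : P} {g : G}
include h

theorem cardY : Nat.card (aut P) * Nat.card (ζ '' {ψ | ψ ≠ 1}) + 1 = Nat.card P := h.toFB.card_fiber h.inj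

theorem sub : ζ '' {ψ | ψ ≠ 1} ⊆ principalBlock M G := by rintro _ ⟨ψ, hψ, rfl⟩; exact h.mem ψ hψ

open Classical in
theorem val (hχ : χ ∈ principalBlock M G) (hy : y ≠ 1) :
    χ.1 y = w χ + δ * ∑ ψ : Lin P, if ψ ≠ 1 ∧ χ = ζ ψ then ψ y else 0 := by
  have := h.ab
  have h1 := sum_lin hy
  rw [← Finset.add_sum_erase _ _ (Finset.mem_univ 1)] at h1
  rw [h.res_eq hχ hy, ← Finset.add_sum_erase _ _ (Finset.mem_univ 1), ← Finset.add_sum_erase _ _ (Finset.mem_univ 1),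
    Finset.sum_congr rfl fun ψ hψ => by rw [h.coef ψ (Finset.mem_erase.1 hψ).1, map_intCast],
    Finset.sum_congr (f := fun ψ : Lin P => if ψ ≠ 1 ∧ χ = ζ ψ then ψ y else 0) (g := fun ψ => if χ = ζ ψ then ψ y else 0)
      rfl fun ψ hψ => by simp [(Finset.mem_erase.1 hψ).1]]
  simp only [vv, sub_self, indFun_zero, blockPart_zero, classInner_zero_left, Int.cast_sub, sub_mul, Finset.sum_sub_distrib,
    ← Finset.mul_sum, Int.cast_ite, ite_mul, eq_neg_of_add_eq_zero_right h1]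
  simp only [map_zero, zero_mul, zero_add, ne_eq, not_true, false_and, if_false, Finset.mul_sum, mul_ite, Int.cast_zero,
    mul_zero, Lin.one_apply]
  ring

theorem val_X (hχ : χ ∈ principalBlock M G) (h1 : χ ∉ ζ '' {ψ | ψ ≠ 1}) (hy : y ≠ 1) : χ.1 y = w χ := by
  rw [h.val hχ hy, Finset.sum_eq_zero fun ψ _ => if_neg fun h2 => h1 ⟨ψ, h2.1, h2.2.symm⟩]; simp

theorem val_Y (hψ : ψ ≠ 1) (hy : y ≠ 1) : (ζ ψ).1 y = d + δ * ∑ σ : aut P, la ψ σ y := by
  classical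
  rw [h.val (h.mem ψ hψ) hy, h.wd ψ hψ, ← sum_ite_orbit _ (h.inj_lin hψ) fun ψ' => ψ' y]
  congr 2
  refine Finset.sum_congr rfl fun ψ' _ => if_congr ⟨fun h1 => (h.inj _ _ hψ h1.1).1 h1.2, fun h1 => ?_⟩ rfl rfl
  have : ψ' ≠ 1 := h1.choose_spec ▸ h.la_ne hψ _
  exact ⟨this, (h.inj _ _ hψ this).2 h1⟩

theorem vv_eq (hψ : ψ ≠ 1) (g : G) : vv M ψ g = δ * (ζ ψ).1 g - ∑ χ : IrrCharacter G, w χ * χ.1 g := by
  rw [(isGen_vv ψ).isClassFunction.apply_eq_sum_irr]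
  simp [h.coef ψ hψ, sub_mul]

theorem Y_eq (h1 : η ∈ ζ '' {ψ | ψ ≠ 1}) (h2 : η' ∈ ζ '' {ψ | ψ ≠ 1}) (hg : ¬ p ∣ orderOf g) : η.1 g = η'.1 g := by
  obtain ⟨ψ, hψ, rfl⟩ := h1
  obtain ⟨ψ', hψ', rfl⟩ := h2
  have h3 := h.vv_eq hψ g
  have h4 := h.vv_eq hψ' g
  rw [vv_reg h.syl.pgrp _ hg] at h3 h4
  rcases h.sgn with rfl | rfl <;> push_cast at h3 h4
  · linear_combination h4 - h3
  · linear_combination h3 - h4

open Classical in
theorem sum_split {R : Type*} [AddCommMonoid R] (f : IrrCharacter G → R) (hf : ∀ χ ∉ principalBlock M G, f χ = 0) :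
    ∑ χ, f χ = ∑ χ with χ ∈ ζ '' {ψ | ψ ≠ 1}, f χ + ∑ᶠ χ ∈ principalBlock M G \ ζ '' {ψ | ψ ≠ 1}, f χ := by
  rw [finsum_mem_eq_ite, Finset.sum_filter, ← Finset.sum_add_distrib]
  refine Finset.sum_congr rfl fun χ _ => ?_
  by_cases h1 : χ ∈ ζ '' {ψ | ψ ≠ 1}
  · rw [if_pos h1, if_neg fun h2 => h2.2 h1, add_zero]
  · rw [if_neg h1, zero_add]
    split_ifs with h2
    · rfl
    · exact hf χ fun h3 => h2 ⟨h3, h1⟩

theorem wY (h1 : η ∈ ζ '' {ψ | ψ ≠ 1}) : w η = d := by obtain ⟨ψ, hψ, rfl⟩ := h1; exact h.wd ψ hψ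

theorem rel (h1 : η ∈ ζ '' {ψ | ψ ≠ 1}) (hg : ¬ p ∣ orderOf g) :
    (Nat.card (ζ '' {ψ | ψ ≠ 1}) * d - δ) * η.1 g + ∑ᶠ χ ∈ principalBlock M G \ ζ '' {ψ | ψ ≠ 1}, w χ * χ.1 g = 0 := by
  classical
  obtain ⟨ψ, hψ, rfl⟩ := id h1
  have h3 := h.vv_eq hψ g
  rw [vv_reg h.syl.pgrp _ hg, h.sum_split _ fun χ hχ => by simp [h.w0 χ hχ], Finset.sum_congr rfl fun χ hχ => by
    rw [h.wY (Finset.mem_filter.1 hχ).2, h.Y_eq (Finset.mem_filter.1 hχ).2 h1 hg], Finset.sum_const,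
    card_filter_mem, nsmul_eq_mul] at h3
  linear_combination h3

theorem norm (hψ : ψ ≠ 1) : (d - δ) ^ 2 + (Nat.card (ζ '' {ψ | ψ ≠ 1}) - 1) * d ^ 2 +
    ∑ᶠ χ ∈ principalBlock M G \ ζ '' {ψ | ψ ≠ 1}, w χ ^ 2 = Nat.card (aut P) + 1 := by
  classical
  have h1 := h.gram (M := M) hψ hψ
  rw [if_pos ⟨1, rfl⟩, (isGen_vv ψ).isClassFunction.inner_eq_sum] at h1
  simp only [fun χ : IrrCharacter G => (conj_classInner (vv M ψ) χ.1).symm, h.coef ψ hψ, map_intCast] at h1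
  norm_cast at h1
  have h2 : ∀ χ, ((if χ = ζ ψ then δ else 0) - w χ) * ((if χ = ζ ψ then δ else 0) - w χ) =
      w χ ^ 2 + if χ = ζ ψ then δ ^ 2 - 2 * δ * d else 0 := fun χ => by
    split_ifs with h2
    · rw [h2, h.wd ψ hψ]; ring
    · ring
  simp only [h2, Finset.sum_add_distrib, Finset.sum_ite_eq', Finset.mem_univ, if_true] at h1
  rw [h.sum_split _ fun χ hχ => by simp [h.w0 χ hχ], Finset.sum_congr rfl fun χ hχ => by
    rw [h.wY (Finset.mem_filter.1 hχ).2], Finset.sum_const, card_filter_mem, nsmul_eq_mul] at h1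
  push_cast at h1
  linear_combination h1

theorem two_le (hm : Nat.card (aut P) + 1 < Nat.card P) : 2 ≤ Nat.card (ζ '' {ψ | ψ ≠ 1}) := by
  by_contra h2
  have : Nat.card (aut P) * Nat.card (ζ '' {ψ | ψ ≠ 1}) ≤ Nat.card (aut P) * 1 := Nat.mul_le_mul_left _ (by omega)
  have := h.cardY
  omega

theorem coef_one (hψ : ψ ≠ 1) : (if oneIrr G = ζ ψ then δ else 0) - w (oneIrr G) = -1 := by
  have := Fintype.ofFinite P
  classical
  have h1 := h.coef ψ hψ (oneIrr G)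
  rw [inner_vv, if_pos oneIrr_mem, show (fun y : P => (oneIrr G).1 y) = ⇑(1 : Lin P) from rfl, classInner_sub_left,
    Lin.inner_eq, Lin.inner_eq, if_neg hψ, if_pos rfl] at h1
  exact_mod_cast h1.symm

theorem one_not_mem (hm : Nat.card (aut P) + 1 < Nat.card P) : oneIrr G ∉ ζ '' {ψ | ψ ≠ 1} := by
  rintro ⟨ψ, hψ, h1⟩
  have : Nontrivial (ζ '' {ψ | ψ ≠ 1}) := Finite.one_lt_card_iff_nontrivial.1 (h.two_le hm)
  obtain ⟨⟨_, ψ', hψ', rfl⟩, h2⟩ := exists_ne (⟨_, ψ, hψ, rfl⟩ : ζ '' {ψ | ψ ≠ 1})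
  have h3 := h.coef_one hψ
  have h4 := h.coef_one hψ'
  rw [if_pos h1.symm] at h3
  rw [if_neg fun h5 => h2 (Subtype.ext (h5.symm.trans h1.symm))] at h4
  have := h.sgn
  omega

theorem w_ne (hP : P ≠ ⊥) (hχ : χ ∈ principalBlock M G) (h1 : χ ∉ ζ '' {ψ | ψ ≠ 1}) : w χ ≠ 0 := fun h0 => by
  obtain ⟨g, hg, h2⟩ := exists_sing_ne_zero (by simpa using mt h.syl.eq_bot_iff.2 hP) hχ
  obtain ⟨x, hx⟩ := exists_isPPart (p := p) g
  obtain ⟨k, hk⟩ := hx.pElt
  obtain ⟨c, -, hc⟩ := h.syl.exists_conj_mem (mem_top x) hk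
  have h3 : (⟨_, hc⟩ : P) ≠ 1 := fun h3 => hx.eq_one_iff.1 (by simpa using h3) hg
  rw [← χ.2.isClassFunction g c, h.apply_eq hχ (y := ⟨_, hc⟩) (hx.conj c) h3, h.val_X hχ h1 h3, h0] at h2
  simp at h2

theorem swap (h2 : Nat.card (ζ '' {ψ | ψ ≠ 1}) = 2) :
    ∃ ζ' w', FD p M P (-δ) (d - δ) ζ' w' := by
  classical
  obtain ⟨a, b, hab, h3⟩ := Set.ncard_eq_two.1 h2
  have h4 : ∀ ψ, ψ ≠ 1 → ζ ψ = a ∨ ζ ψ = b := fun ψ hψ => by simpa using h3.subset ⟨ψ, hψ, rfl⟩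
  have ha : a ∈ ζ '' {ψ | ψ ≠ 1} := by simp [h3]
  have hb : b ∈ ζ '' {ψ | ψ ≠ 1} := by simp [h3]
  refine ⟨fun ψ => Equiv.swap a b (ζ ψ), fun χ => w χ - if χ = a ∨ χ = b then δ else 0, h.toFB, by have := h.sgn; omega,
    fun ψ hψ => ?_, fun ψ ψ' hψ hψ' => by rw [Equiv.apply_eq_iff_eq, h.inj _ _ hψ hψ'], fun ψ hψ χ => ?_, fun ψ hψ => ?_,
    fun χ hχ => ?_⟩
  · rcases h4 ψ hψ with h5 | h5 <;> simp [h5, h.sub ha, h.sub hb]
  · rw [h.coef ψ hψ]
    congr 1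
    rcases h4 ψ hψ with h5 | h5 <;> simp only [h5, Equiv.swap_apply_left, Equiv.swap_apply_right] <;>
      by_cases h6 : χ = a <;> by_cases h7 : χ = b <;> simp_all <;> ring
  · rcases h4 ψ hψ with h5 | h5 <;> simp [h5, h.wY ha, h.wY hb]
  · rw [h.w0 χ hχ, if_neg, sub_zero]
    rintro (rfl | rfl)
    exacts [hχ (h.sub ha), hχ (h.sub hb)]

end FD

end Cfsg.Agent.B
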