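import Cfsg.Agent.B.Prin
import Cfsg.Agent.H3.Normal
import Cfsg.Agent.B.Sub2
import Cfsg.Agent.H3.FS
import Cfsg.Agent.L.K4

/-!
# Products of two involutions and the principal block.
-/

set_option autoImplicit false
set_option linter.unusedSectionVars false

namespace Cfsg.Agent.B

open MonoidAlgebra Subgroup Cfsg.Agent.H3 Cfsg.Agent.H2
open scoped ComplexConjugate

variable {G : Type*} [Group G] [Finite G]

theorem blockPart_ker' (N : Subgroup G) [N.Normal] [Fintype N] {φ : G → ℂ} (hφ : IsClassFunction G φ) :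
    blockPart {χ : IrrCharacter G | N ≤ charKer (χ : G → ℂ)} φ = avg N φ := by
  classical
  have := Fintype.ofFinite G
  exact (isClassFunction_blockPart _ _).ext_inner hφ.avg fun ψ hψ => by
    rw [classInner_blockPart _ _ ⟨ψ, hψ⟩, classInner_avg_irr _ hψ]; simp

theorem sum_resOf_eq {p : ℕ} [hp : Fact p.Prime] {M : Ideal AlgInt} [PMod p M] {t : G} (ht : PElt p t)
    (hn : PNil p (centralizer {t})) {φ : G → ℂ} (hφ : IsClassFunction G φ) {x : G}
    (hx : x ∈ centralizer ({t} : Set G))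
    (hC : ∀ z : G, IsPPart p x z → centralizer ({z} : Set G) ≤ centralizer {t})
    [Fintype (resOf p (centralizer ({t} : Set G)))] :
    ∑ v : resOf p (centralizer ({t} : Set G)), φ (x * v) =
      Nat.card (resOf p (centralizer ({t} : Set G))) * blockPart (principalBlock M G) φ x := by
  have := Fintype.ofFinite (pResidual p (centralizer ({t} : Set G)))
  have h1 := pNil_iff_card.1 (pNil_top_subtype_iff.2 hn)
  rw [resOf_top] at h1
  obtain ⟨k, hk⟩ := index_pResidual p (centralizer ({t} : Set G))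
  have h2 := blockPart_principal_res (M := M) ht hφ ⟨x, hx⟩ hC
  rw [principalBlock_eq_of_complement (hp.out.coprime_iff_not_dvd.1 h1.symm) hk,
    blockPart_ker' _ (hφ.res _), avg_apply] at h2
  let e := ((MulEquiv.subgroupCongr (pResidual_eq_subgroupOf p (centralizer ({t} : Set G)))).trans
    (subgroupOfEquivOfLe (resOf_le p _))).toEquiv
  rw [h2, Nat.card_congr e, mul_inv_cancel_left₀ card_ne_zero]
  refine (Fintype.sum_equiv e _ _ fun n => ?_).symm
  exact hφ.mul_comm _ _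

open Classical in
/-- Indicator of a conjugacy class. -/
noncomputable def cind (J : G) (a : G) : ℂ := if IsConj J a then 1 else 0

theorem sq_of_isConj {J a : G} (hJ : J * J = 1) (h : IsConj J a) : a * a = 1 := by
  obtain ⟨g, rfl⟩ := isConj_iff.1 h
  calc g * J * g⁻¹ * (g * J * g⁻¹) = g * (J * J) * g⁻¹ := by group
    _ = 1 := by rw [hJ]; group

theorem sum_cind_mul [Fintype G] {J : G} (hJ : J * J = 1) (g : G) :
    ∑ a, cind J a * cind J (a⁻¹ * g) = (Nat.card G : ℂ) / (Nat.card (centralizer ({J} : Set G)) : ℂ) ^ 2 *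
      ∑ χ : IrrCharacter G, (χ : G → ℂ) J ^ 2 / (χ : G → ℂ) 1 * (χ : G → ℂ) g := by
  classical
  have h1 := card_class_mul_eq_sum J J g⁻¹
  have h2 : (Nat.card {x : G // IsConj J x} : ℂ) = Nat.card G / Nat.card (centralizer ({J} : Set G)) := by
    rw [eq_div_iff card_ne_zero]
    exact_mod_cast card_class_mul J
  have h3 : (Nat.card {p : G × G // IsConj J p.1 ∧ IsConj J p.2 ∧ p.1 * p.2 = g⁻¹} : ℂ) =
      ∑ a, cind J a * cind J (a⁻¹ * g) := by
    have e : ∀ a, cind J a * cind J (a⁻¹ * g) = if IsConj J a ∧ IsConj J (a⁻¹ * g) then 1 else 0 := fun a => by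
      simp only [cind, ite_mul, one_mul, zero_mul, ← ite_and]
      congr
    simp only [e]
    rw [Finset.sum_boole, ← Fintype.card_subtype, ← Nat.card_eq_fintype_card]
    congr 1
    have e2 : ∀ a b : G, IsConj J a → IsConj J b → a * b = g⁻¹ → b⁻¹ * g = a := fun a b ha hb h => by
      rw [← inv_inv g, ← h, mul_inv_rev, inv_eq_of_mul_eq_one_right (sq_of_isConj hJ ha),
        inv_eq_of_mul_eq_one_right (sq_of_isConj hJ hb), ← mul_assoc, sq_of_isConj hJ hb, one_mul]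
    refine Nat.card_congr ⟨fun x => ⟨x.1.2, x.2.2.1, ?_⟩, fun a => ⟨(a.1⁻¹ * g, a.1), a.2.2, a.2.1, ?_⟩,
      fun x => ?_, fun a => rfl⟩
    · rw [e2 _ _ x.2.1 x.2.2.1 x.2.2.2]; exact x.2.1
    · have e1 := inv_eq_of_mul_eq_one_right (sq_of_isConj hJ a.2.2)
      dsimp only
      rw [← e1, mul_inv_rev, inv_inv, mul_assoc, sq_of_isConj hJ a.2.1, mul_one]
    · exact Subtype.ext (Prod.ext (e2 _ _ x.2.1 x.2.2.1 x.2.2.2) rfl)
  rw [← h3, h1, h2]
  have := card_ne_zero (G := G)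
  have := card_ne_zero (G := centralizer ({J} : Set G))
  congr 1
  · field_simp
  · refine Finset.sum_congr rfl fun χ _ => ?_
    rw [← χ.2.apply_inv, inv_inv]; ring

theorem exists_conj_of_sq {U : Subgroup G} (hU : Odd (Nat.card U)) {s k : G} (hk : k ∈ U) (hs : s * s = 1)
    (h : s * k * (s * k) = 1) : ∃ w ∈ U, w * s * w⁻¹ = s * k := by
  have h1 : Odd (orderOf k) := Odd.of_dvd_nat hU (orderOf_dvd_natCard U hk)
  obtain ⟨n, hn⟩ := mem_zpowers_iff.1 (mem_zpowers_sq_of_odd h1)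
  have h2 : s * k * s⁻¹ = k⁻¹ := by
    rw [inv_eq_of_mul_eq_one_right hs, eq_inv_iff_mul_eq_one, mul_assoc _ s, h]
  have h3 : s * k ^ n * s⁻¹ = (k ^ n)⁻¹ := by rw [← conj_zpow, h2, inv_zpow]
  refine ⟨(k ^ n)⁻¹, U.inv_mem (U.zpow_mem hk n), ?_⟩
  rw [inv_inv, ← h3]
  conv_rhs => rw [← hn, ← zpow_natCast, ← zpow_mul, mul_comm, zpow_mul]
  rw [show ((2 : ℕ) : ℤ) = 1 + 1 from rfl, zpow_add, zpow_one]
  group

theorem sum_cind_coset {J : G} (hJ : J * J = 1) {U P : Subgroup G} [Fintype U] (hU : Odd (Nat.card U))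
    (hn : P ≤ normalizer (U : Set G)) (hd : P ⊓ U = ⊥) {s : G} (hs : s ∈ P) :
    ∑ k : U, cind J (s * k) = cind J s * (centralizer {s}).relIndex U := by
  classical
  have key : ∀ k ∈ U, IsConj J (s * k) → ∃ w ∈ U, w * s * w⁻¹ = s * k := fun k hk h => by
    have h1 := sq_of_isConj hJ h
    refine exists_conj_of_sq hU hk ?_ h1
    have h2 : s * s ∈ P ⊓ U := by
      refine ⟨P.mul_mem hs hs, ?_⟩
      have : s * s = (s * k * s⁻¹)⁻¹ * (s * k * (s * k)) * k⁻¹ := by group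
      rw [this, h1, mul_one]
      exact U.mul_mem (U.inv_mem ((mem_normalizer_iff.1 (hn hs) k).1 hk)) (U.inv_mem hk)
    rw [hd] at h2
    exact h2
  by_cases h : IsConj J s
  · rw [← ncard_conj_image]
    simp only [cind, if_pos h, one_mul]
    rw [Finset.sum_boole, ← Fintype.card_subtype, ← Nat.card_eq_fintype_card, ← Nat.card_coe_set_eq]
    congr 1
    refine Nat.card_congr ⟨fun k => ⟨s * k.1, key _ k.1.2 k.2⟩, fun v => ⟨⟨s⁻¹ * v.1, ?_⟩, ?_⟩,
      fun k => ?_, fun v => ?_⟩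
    · obtain ⟨w, hw, e⟩ := v.2
      rw [← e]
      have := U.mul_mem ((mem_normalizer_iff''.1 (hn hs) w).1 hw) (U.inv_mem hw)
      simpa only [mul_assoc] using this
    · obtain ⟨w, hw, e⟩ := v.2
      simp only [mul_inv_cancel_left]
      exact h.trans (isConj_iff.2 ⟨w, e⟩)
    · ext; simp
    · ext; simp
  · simp only [cind, if_neg h, zero_mul]
    refine Finset.sum_eq_zero fun k _ => if_neg fun h' => h ?_
    obtain ⟨w, -, e⟩ := key _ k.2 h'
    exact h'.trans (isConj_iff.2 ⟨w, e⟩).symm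

theorem sum_split {C U P : Subgroup G} [Fintype G] [Fintype U] [Fintype P] (hd : P ⊓ U = ⊥)
    (hP : P ≤ C) (hU : U ≤ C) (h : ∀ g ∈ C, ∃ u ∈ P, ∃ k ∈ U, g = u * k) {f : G → ℂ}
    (hf : ∀ g, g ∉ C → f g = 0) : ∑ g, f g = ∑ s : P, ∑ k : U, f (s * k) := by
  classical
  rw [← Fintype.sum_prod_type' (f := fun (s : P) (k : U) => f (s * k))]
  symm
  refine Finset.sum_of_injOn (fun x : P × U => (x.1 : G) * x.2) ?_ (by simp) ?_ (fun _ _ => rfl)
  · rintro ⟨a, b⟩ - ⟨a', b'⟩ - e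
    have h1 : (a' : G)⁻¹ * a ∈ P ⊓ U := by
      refine ⟨P.mul_mem (P.inv_mem a'.2) a.2, ?_⟩
      have : (a' : G)⁻¹ * a = b' * (b : G)⁻¹ := by
        rw [inv_mul_eq_iff_eq_mul, ← mul_assoc, eq_mul_inv_iff_mul_eq]; exact e
      rw [this]
      exact U.mul_mem b'.2 (U.inv_mem b.2)
    rw [hd, mem_bot, inv_mul_eq_one] at h1
    have h2 : a = a' := Subtype.ext h1.symm
    subst h2
    exact Prod.ext rfl (Subtype.ext (mul_left_cancel e))
  · intro g _ hg
    refine hf g fun hC => hg ?_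
    obtain ⟨u, hu, k, hk, e⟩ := h g hC
    exact ⟨(⟨u, hu⟩, ⟨k, hk⟩), by simp, e.symm⟩

/-- The basic count of Brauer: products of two involutions against the principal block. -/
theorem inv_count (M : Ideal AlgInt) [PMod 2 M] {J : G} (hJ : orderOf J = 2)
    (hn : PNil 2 (centralizer {J})) {P : Subgroup G} [Fintype P] (hP : SylIn 2 P (centralizer {J})) {x : G}
    (hx : x ∈ P) (hJx : J ∈ zpowers x) [DecidablePred (· ∈ principalBlock M G)] :
    ∑ s : P, cind J s * (centralizer {(s : G)}).relIndex (resOf 2 (centralizer {J})) *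
      (cind J ((s : G)⁻¹ * x) * (centralizer {(s : G)⁻¹ * x}).relIndex (resOf 2 (centralizer {J}))) =
    Nat.card (resOf 2 (centralizer ({J} : Set G))) * ((Nat.card G : ℂ) /
      (Nat.card (centralizer ({J} : Set G)) : ℂ) ^ 2 * ∑ χ : IrrCharacter G,
        if χ ∈ principalBlock M G then (χ : G → ℂ) J ^ 2 / (χ : G → ℂ) 1 * (χ : G → ℂ) x else 0) := by
  classical
  have := Fintype.ofFinite G
  set C := centralizer ({J} : Set G) with hC
  set U := resOf 2 C with hU
  have hJ2 : J * J = 1 := by rw [← sq, ← hJ, pow_orderOf_eq_one]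
  have hJp : PElt 2 J := ⟨1, by simpa using hJ⟩
  have hxp : PElt 2 x := pElt_of_mem hP.pgrp hx
  have hUo : Odd (Nat.card U) := Nat.coprime_two_right.1 (pNil_iff_card.1 hn)
  have hd : P ⊓ U = ⊥ := hP.pNil_iff.1 hn
  have hCn : C ≤ normalizer (U : Set G) := le_normalizer_resOf 2 C
  have hPn : P ≤ normalizer (U : Set G) := hP.le.trans hCn
  have h1 := sum_resOf_eq (M := M) hJp hn (isClassFunction_sum_irr
    fun χ : IrrCharacter G => (χ : G → ℂ) J ^ 2 / (χ : G → ℂ) 1) (hP.le hx) (fun z hz => by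
      rw [IsPPart.unique hz hxp.isPPart_self]
      intro g hg
      obtain ⟨n, rfl⟩ := mem_zpowers_iff.1 hJx
      exact mem_centralizer_singleton_iff.2 ((Commute.zpow_right (mem_centralizer_singleton_iff.1 hg) n)))
  rw [blockPart_eq] at h1
  simp only [classInner_sum_irr, Finset.sum_apply, Pi.smul_apply, smul_eq_mul] at h1
  rw [mul_left_comm]
  refine Eq.trans ?_ (congrArg _ h1)
  rw [Finset.mul_sum]
  refine Eq.trans ?_ (Finset.sum_congr rfl fun v _ => sum_cind_mul hJ2 (x * v))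
  rw [Finset.sum_comm, sum_split hd hP.le (resOf_le 2 C) (fun g hg => hP.exists_mul_resOf hg)]
  · refine Finset.sum_congr rfl fun s _ => ?_
    rw [← sum_cind_coset hJ2 hUo hPn hd s.2, ← sum_cind_coset hJ2 hUo hPn hd (P.mul_mem (P.inv_mem s.2) hx),
      Finset.sum_mul]
    refine Finset.sum_congr rfl fun k _ => ?_
    rw [← Finset.mul_sum]
    congr 1
    have hk : ((s : G)⁻¹ * x)⁻¹ * (k : G)⁻¹ * ((s : G)⁻¹ * x) ∈ U :=
      (mem_normalizer_iff''.1 (hPn (P.mul_mem (P.inv_mem s.2) hx)) _).1 (U.inv_mem k.2)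
    rw [← Equiv.sum_comp (Equiv.mulLeft (⟨_, hk⟩ : U))]
    refine Finset.sum_congr rfl fun v _ => ?_
    congr 1
    simp only [Equiv.coe_mulLeft, Subgroup.coe_mul]
    group
  · intro a ha
    refine Finset.sum_eq_zero fun v _ => ?_
    by_contra h
    obtain ⟨h2, h3⟩ := mul_ne_zero_iff.1 h
    have h4 : IsConj J a := by by_contra e; exact h2 (if_neg e)
    have h5 : IsConj J (a⁻¹ * (x * v)) := by by_contra e; exact h3 (if_neg e)
    have h6 : a * (x * v) * a⁻¹ = (x * v)⁻¹ := by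
      have e1 := sq_of_isConj hJ2 h5
      rw [inv_eq_of_mul_eq_one_right (sq_of_isConj hJ2 h4)] at e1 ⊢
      rw [eq_inv_iff_mul_eq_one, mul_assoc _ a, e1]
    obtain ⟨n, hn'⟩ := mem_powers_iff_mem_zpowers.2 hJx
    have h7 : ∀ m : ℕ, ∃ k ∈ U, (x * v) ^ m = x ^ m * k := fun m => by
      induction m with
      | zero => exact ⟨1, U.one_mem, by simp⟩
      | succ m ih =>
        obtain ⟨k, hk, e⟩ := ih
        refine ⟨x⁻¹ * k * x * v, U.mul_mem ((mem_normalizer_iff''.1 (hPn hx) _).1 hk) v.2, ?_⟩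
        rw [pow_succ, e, pow_succ]; group
    obtain ⟨k, hk, e⟩ := h7 n
    dsimp only at hn'
    rw [hn'] at e
    have h8 : IsPPart 2 (J * k) J := isPPart_mul hJp
      (reg_of_mem (Nat.two_dvd_ne_zero.2 (Nat.odd_iff.1 hUo)) hk)
      (mem_centralizer_singleton_iff.1 (resOf_le 2 C hk)).symm
    obtain ⟨m, hm⟩ := IsPPart.exists_pow h8
    have h9 : a * J * a⁻¹ = J⁻¹ := by
      rw [← hm, ← e, ← conj_pow, ← conj_pow, h6, inv_pow, inv_pow]
    rw [inv_eq_of_mul_eq_one_right hJ2, mul_inv_eq_iff_eq_mul] at h9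
    exact ha (mem_centralizer_singleton_iff.2 h9)

theorem card_split {C U P : Subgroup G} (hd : P ⊓ U = ⊥)
    (hP : P ≤ C) (hU : U ≤ C) (h : ∀ g ∈ C, ∃ u ∈ P, ∃ k ∈ U, g = u * k) :
    Nat.card C = Nat.card P * Nat.card U := by
  classical
  have := Fintype.ofFinite G
  have h1 := sum_split hd hP hU h (f := fun g => if g ∈ C then 1 else 0) fun g hg => if_neg hg
  have h2 : ∀ (s : P) (k : U), (s : G) * k ∈ C := fun s k => C.mul_mem (hP s.2) (hU k.2)
  simp only [h2, if_true, Finset.sum_const, Finset.card_univ, nsmul_eq_mul, mul_one] at h1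
  rw [Finset.sum_boole, ← Fintype.card_subtype] at h1
  simp only [← Nat.card_eq_fintype_card] at h1
  exact_mod_cast h1

theorem card_split_cent {C U P : Subgroup G} (hd : P ⊓ U = ⊥) (hn : P ≤ normalizer (U : Set G))
    (hP : P ≤ C) (hU : U ≤ C) (h : ∀ g ∈ C, ∃ u ∈ P, ∃ k ∈ U, g = u * k) {s : G} (hs : s ∈ P) :
    Nat.card ↥(C ⊓ centralizer {s}) = Nat.card ↥(P ⊓ centralizer {s}) * Nat.card ↥(U ⊓ centralizer {s}) := by
  refine card_split (eq_bot_iff.2 (hd ▸ inf_le_inf inf_le_left inf_le_left)) (inf_le_inf_right _ hP)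
    (inf_le_inf_right _ hU) fun g hg => ?_
  obtain ⟨u, hu, k, hk, rfl⟩ := h g hg.1
  have h1 := mem_centralizer_singleton_iff.1 hg.2
  have h2 : (s * u)⁻¹ * (u * s) ∈ P ⊓ U := by
    refine ⟨P.mul_mem (P.inv_mem (P.mul_mem hs hu)) (P.mul_mem hu hs), ?_⟩
    have : (s * u)⁻¹ * (u * s) = k * (s * (u * k))⁻¹ * (u * k * s) * (s⁻¹ * k * s)⁻¹ := by group
    rw [this, h1, inv_mul_cancel_right]
    exact U.mul_mem hk (U.inv_mem ((mem_normalizer_iff''.1 (hn hs) _).1 hk))
  rw [hd, mem_bot, inv_mul_eq_one] at h2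
  have h3 : u ∈ centralizer ({s} : Set G) := mem_centralizer_singleton_iff.2 h2.symm
  exact ⟨u, ⟨hu, h3⟩, k, ⟨hk, ((centralizer _).mul_mem_cancel_left h3).1 hg.2⟩, rfl⟩

end Cfsg.Agent.B
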