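import Cfsg.Agent.B.Ito
import Cfsg.Agent.C3.Real
import Cfsg.Agent.H3.Cover

/-! Harada's conjecture for `p`-solvable groups. -/

set_option autoImplicit false
set_option linter.unusedSectionVars false
open Cfsg

namespace Cfsg.Agent.B

open Cfsg.Agent Cfsg.Agent.H2 Cfsg.Agent.H3 Subgroup MonoidAlgebra
open scoped Pointwise commutatorElement ComplexConjugate

universe u

section
open Representation Module
theorem exists_cover' {G : Type u} [Group G] [Finite G] {N : Subgroup G} [hN : N.Normal]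
    {θ : N → ℂ} (hθ : IsIrrCharacter N θ) (hinv : ∀ g : G, cjf g θ = θ) :
    ∃ (Γ : Type u) (_ : Group Γ) (_ : Finite Γ) (π : Γ →* G) (ι : N →* Γ) (η : Γ → ℂ),
      IsCover θ π ι η ∧ ∀ z ∈ π.ker, z ^ (charDegree θ * Nat.card N) = 1 := by
  obtain ⟨d, ρ, hρ, rfl⟩ := hθ
  have hd : 0 < d := by simpa using finrank_pos_of_isIrreducible ρ
  let E := Module.End ℂ (Fin d → ℂ)
  let Γ : Subgroup (G × Eˣ) :=
    { carrier := {x | (∀ n : N, (x.2 : E) * ρ n = ρ ⟨x.1 * n * x.1⁻¹, hN.conj_mem n n.2 _⟩ * x.2) ∧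
        LinearMap.det (x.2 : E) ^ Nat.card N = 1}
      mul_mem' := by
        rintro a b ⟨ha, ha'⟩ ⟨hb, hb'⟩
        refine ⟨fun n => ?_, by simp [mul_pow, ha', hb']⟩
        simp only [Prod.snd_mul, Units.val_mul, Prod.fst_mul]
        rw [mul_assoc, hb, ← mul_assoc, ha, mul_assoc]
        simp [mul_assoc]
      one_mem' := ⟨fun n => by simp, by simp⟩
      inv_mem' := by
        rintro a ⟨ha, ha'⟩
        refine ⟨fun n => ?_, ?_⟩
        · have := ha ⟨a.1⁻¹ * n * a.1⁻¹⁻¹, hN.conj_mem n n.2 _⟩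
          simp only [Prod.snd_inv, Prod.fst_inv]
          rw [Units.inv_mul_eq_iff_eq_mul, ← mul_assoc, this]
          simp [mul_assoc]
        · have h1 : LinearMap.det ((a.2⁻¹ : Eˣ) : E) * LinearMap.det (a.2 : E) = 1 := by
            rw [← map_mul, Units.inv_mul, map_one]
          have h2 := congrArg (· ^ Nat.card N) h1
          simpa [mul_pow, ha'] using h2 }
  let π : Γ →* G := (MonoidHom.fst _ _).comp Γ.subtype
  let ι : N →* Γ := (N.subtype.prod ρ.asGroupHom).codRestrict Γ fun n => ⟨fun m => by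
      simp only [MonoidHom.prod_apply, asGroupHom_apply, ← map_mul]
      congr 1
      ext; simp, by
      simp only [MonoidHom.prod_apply, asGroupHom_apply]
      rw [← map_pow, ← map_pow, pow_card_eq_one', map_one, map_one]⟩
  let σ : Representation ℂ Γ (Fin d → ℂ) :=
    (Units.coeHom E).comp ((MonoidHom.snd _ _).comp Γ.subtype)
  have hker : ∀ z : Γ, π z = 1 → ∃ c : ℂ, (z.1.2 : E) = c • (1 : E) := fun z hz =>
    exists_scalar_of_commute ρ _ fun n => by
      have h1 := z.2.1 n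
      have h2 : z.1.1 = 1 := hz
      simp only [h2, one_mul, inv_one, mul_one, Subtype.coe_eta] at h1
      exact h1
  have hfin : Finite π.ker := by
    choose c hc using fun z : π.ker => hker z.1 z.2
    have h1 : ∀ z, c z ∈ (Polynomial.nthRoots (d * Nat.card N) (1 : ℂ)).toFinset := fun z => by
      rw [Multiset.mem_toFinset, Polynomial.mem_nthRoots (Nat.mul_pos hd Nat.card_pos), pow_mul]
      have := z.1.2.2
      rw [hc z, LinearMap.det_smul] at this
      simpa using this
    refine Finite.of_injective (fun z => (⟨c z, h1 z⟩ : {x // x ∈ _})) fun a b hab => ?_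
    have h2 : c a = c b := congrArg Subtype.val hab
    refine Subtype.ext (Subtype.ext (Prod.ext (a.2.trans b.2.symm) (Units.ext ?_)))
    rw [hc, hc, h2]
  refine ⟨Γ, inferInstance, π.finite_iff_finite_ker_range.2 ⟨hfin, inferInstance⟩, π, ι,
    σ.character, ⟨fun g => ?_, fun n => rfl, fun x n => ?_, fun z hz => ?_,
    isCharacter_character σ, fun n => rfl⟩, fun z hz => ?_⟩
  · obtain ⟨e⟩ := nonempty_equiv_of_char_eq ρ
      (ρ.comp (MulAut.conjNormal (H := N) g).toMonoidHom) (hinv g).symm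
    have h0 : LinearMap.det (e.toLinearEquiv : E) ≠ 0 := e.toLinearEquiv.isUnit_det'.ne_zero
    obtain ⟨c, hc⟩ := IsAlgClosed.exists_pow_nat_eq (LinearMap.det (e.toLinearEquiv : E))⁻¹ hd
    have h1 : LinearMap.det (c • (e.toLinearEquiv : E)) = 1 := by
      rw [LinearMap.det_smul]; simp [hc, h0]
    have h2 : IsUnit (c • (e.toLinearEquiv : E)) :=
      (LinearMap.isUnit_iff_isUnit_det _).2 (by rw [h1]; exact isUnit_one)
    refine ⟨⟨(g, h2.unit), fun n => ?_, by simp [h1]⟩, rfl⟩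
    simp only [IsUnit.unit_spec, smul_mul_assoc, mul_smul_comm]
    congr 1
    exact e.toIntertwiningMap.isIntertwining' n
  · refine Subtype.ext (Prod.ext rfl (Units.ext ?_))
    have := x.2.1 n
    change (x.1.2 : E) * ρ n * ((x.1.2⁻¹ : Eˣ) : E) = ρ _
    rw [this, mul_assoc, Units.mul_inv, mul_one]
    rfl
  · obtain ⟨c, hc⟩ := hker z hz
    rw [Subgroup.mem_center_iff]
    intro x
    refine Subtype.ext (Prod.ext ?_ (Units.ext ?_))
    · have h2 : z.1.1 = 1 := hz
      simp [h2]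
    · simp [hc]
  · obtain ⟨c, hc⟩ := hker z hz
    have h1 := z.2.2
    have h2 : z.1.1 = 1 := hz
    have h3 : charDegree ρ.character = d := by
      have := (isCharacter_character ρ).cast_charDegree
      rw [char_one] at this
      simpa using this
    rw [hc, LinearMap.det_smul] at h1
    refine Subtype.ext (Prod.ext ?_ (Units.ext ?_))
    · simp [h2]
    · simp only [SubmonoidClass.coe_pow, Prod.pow_snd, Units.val_pow_eq_pow_val, hc, smul_pow, one_pow, h3, pow_mul]
      simp at h1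
      simp [h1]

end

variable {p : ℕ} [hp : Fact p.Prime] {M : Ideal AlgInt} [hM : PMod p M]
variable {G : Type*} [Group G] [Finite G] {U W : Set (IrrCharacter G)}

open Classical in
/-- `∑_{χ ∈ U} χ(1) χ` -/
noncomputable def rho (U : Set (IrrCharacter G)) : G → ℂ :=
  ∑ χ : IrrCharacter G, (if χ ∈ U then (χ : G → ℂ) 1 else 0) • (χ : G → ℂ)

theorem rho_eq (g : G) : rho U g = Nat.card G * blockCoeff U g⁻¹ := by
  rw [blockCoeff_eq, mul_inv_cancel_left₀ (Nat.cast_ne_zero.2 Nat.card_pos.ne'), rho, Finset.sum_apply]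
  exact Finset.sum_congr rfl fun χ _ => by split_ifs <;> simp

theorem rho_class : IsClassFunction G (rho U) := fun g x => by
  simp only [rho, Finset.sum_apply, Pi.smul_apply, fun χ : IrrCharacter G => χ.2.isClassFunction.conj_apply g x]

open Classical in
theorem inner_rho [Fintype G] (ψ : IrrCharacter G) :
    classInner (rho U) ψ = if ψ ∈ U then (ψ : G → ℂ) 1 else 0 := classInner_sum_irr _ ψ

theorem blockPart_rho : blockPart W (rho U) = rho (U ∩ W) := by
  classical
  have := Fintype.ofFinite G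
  refine (isClassFunction_blockPart _ _).ext_inner rho_class fun χ hχ => ?_
  rw [classInner_blockPart W _ ⟨χ, hχ⟩, inner_rho ⟨χ, hχ⟩, inner_rho ⟨χ, hχ⟩]
  by_cases a : (⟨χ, hχ⟩ : IrrCharacter G) ∈ U <;> by_cases b : (⟨χ, hχ⟩ : IrrCharacter G) ∈ W <;> simp [a, b]

theorem blockCoeff_inv (g : G) : blockCoeff U g⁻¹ = conj (blockCoeff U g) := by
  classical
  rw [blockCoeff_eq, blockCoeff_eq, map_mul, map_inv₀, map_natCast, map_sum]
  congr 1
  refine Finset.sum_congr rfl fun χ _ => ?_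
  split_ifs
  · rw [map_mul, χ.2.isCharacter.conj_apply_one, ← χ.2.apply_inv]
  · simp

open ComplexOrder in
theorem ko (h : ∀ g, p ∣ orderOf g → rho U g = 0) {P : Subgroup G} [hn : P.Normal] (hP : IsPGroup p P) {g : G}
    (hg : rho U g ≠ 0) : g ∈ centralizer (P : Set G) := by
  have := Fintype.ofFinite G
  have h0 : ∀ x, blockCoeff U x ≠ 0 → ¬ p ∣ orderOf x := fun x a b => a (by
    have := h x⁻¹ (by rwa [orderOf_inv])
    rwa [rho_eq, inv_inv, mul_eq_zero, or_iff_right (Nat.cast_ne_zero.2 Nat.card_pos.ne')] at this)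
  obtain ⟨k, hk⟩ := hP.exists_card_eq
  have h1 : ∀ x, blockCoeff U x ≠ 0 → (orderOf x).Coprime (Nat.card P) := fun x a =>
    hk ▸ (reg_iff_coprime.1 (h0 x a)).pow_right k
  have h2 : ∀ u ∈ P, u ≠ 1 → ∀ x, blockCoeff U x * blockCoeff U (x⁻¹ * u) = 0 := fun u hu a x => by
    have b := congrArg (·.coeff u) (fC_mul_self U)
    simp only [coeff_mul_sum, coeff_fC] at b
    rw [not_not.1 (mt (h0 u) (not_not.2 ((pElt_of_mem hP hu).dvd a)))] at b
    refine (Finset.sum_eq_zero_iff_of_nonneg fun y _ => ?_).1 b x (Finset.mem_univ _)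
    by_cases c : blockCoeff U y = 0
    · simp [c]
    by_cases d : blockCoeff U (y⁻¹ * u) = 0
    · simp [d]
    obtain ⟨n, -, e⟩ := C3.isConj_of_coset (N := P) (x := y⁻¹) (y := y⁻¹ * u) (QuotientGroup.eq.2 (by simpa using hu))
      (orderOf_inv y ▸ h1 y c) (h1 _ d)
    rw [← e, (isClassFunction_blockCoeff U).conj_apply, blockCoeff_inv, Complex.mul_conj]
    exact_mod_cast Complex.normSq_nonneg _
  rw [rho_eq] at hg
  intro v hv
  by_contra a
  have b := h2 (g⁻¹ * v * g * v⁻¹) (mul_mem (hn.conj_mem' v hv g) (inv_mem hv)) (fun c => a (by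
    rw [mul_inv_eq_one, mul_assoc, inv_mul_eq_iff_eq_mul] at c; exact c)) g⁻¹
  rw [show g⁻¹⁻¹ * (g⁻¹ * v * g * v⁻¹) = v * g * v⁻¹ by group, (isClassFunction_blockCoeff U).conj_apply,
    blockCoeff_inv] at b
  rw [blockCoeff_inv] at hg
  simp at b hg
  exact hg b

theorem exists_normal_lift {Y : Type*} [Group Y] (r : G →* Y) (hr : Function.Surjective r) (hc : r.ker ≤ center G)
    {A : Subgroup Y} [A.Normal] (hA : IsPGroup p A) : ∃ P : Subgroup G, P.Normal ∧ IsPGroup p P ∧ A ≤ P.map r := by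
  have := Finite.of_surjective r hr
  have := hA.isNilpotent
  have h1 := r.subgroupComap_surjective_of_surjective A hr
  have := Subgroup.isNilpotent_of_ker_le_center (r.subgroupComap A) fun x hx => mem_center_iff.2 fun y => Subtype.ext
    (mem_center_iff.1 (hc (congrArg Subtype.val hx)) y)
  obtain ⟨S⟩ := (inferInstance : Nonempty (Sylow p (A.comap r)))
  have := S.characteristic_of_normal inferInstance
  refine ⟨(S : Subgroup (A.comap r)).map (A.comap r).subtype, inferInstance, S.2.map _, fun a ha => ?_⟩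
  obtain ⟨x, hx, e⟩ : (⟨a, ha⟩ : A) ∈ (S.mapSurjective h1 : Subgroup A) :=
    ((S.mapSurjective h1).is_maximal' (hA.to_subgroup ⊤) le_top).le (mem_top _)
  exact ⟨x, ⟨x, hx, rfl⟩, congrArg Subtype.val e⟩

theorem eq_zero_of_mul {K : Subgroup G} [K.Normal] {η : G → ℂ} (hη : IsCharacter G η)
    (hr : IsIrrCharacter K fun n : K => η n) {f : G ⧸ K → ℂ} (hf : IsClassFunction _ f)
    (h : ∀ x : G, f x * η x = 0) : f = 0 := by
  classical
  have := Fintype.ofFinite G
  have := Fintype.ofFinite (G ⧸ K)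
  have hq := QuotientGroup.mk'_surjective K
  have h1 : ∀ β : IrrCharacter (G ⧸ K), K ≤ charKer (infl _ hq β : G → ℂ) := fun β n hn x => by
    simp [infl_apply, (QuotientGroup.eq_one_iff n).2 hn]
  have h2 := fun β : IrrCharacter (G ⧸ K) => (infl _ hq β).2.gallagher_irr (h1 β) hη hr
  refine hf.eq_zero_of_inner fun β hβ => ?_
  have h3 : ∑ γ : IrrCharacter (G ⧸ K), classInner f γ • ((infl _ hq γ : G → ℂ) * η) = 0 := by
    ext x
    rw [Pi.zero_apply, ← h x, congrFun hf.eq_sum_irr x]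
    simp [infl_apply, Finset.sum_mul, mul_assoc]
  have h4 := congrArg (classInner · ((infl _ hq ⟨β, hβ⟩ : G → ℂ) * η)) h3
  simp only [classInner_sum_left, classInner_smul_left] at h4
  rw [Finset.sum_eq_single ⟨β, hβ⟩ (fun γ _ a => mul_eq_zero_of_right _ (by_contra fun b => a (infl_injective _ hq
    (Subtype.ext (gallagher_injective (infl _ hq γ).2 (h1 γ) (infl _ hq _).2 (h1 _) hη hr
    ((h2 γ).eq_of_inner_ne_zero (h2 _) b)))))) (by simp), (h2 _).inner_self, mul_one] at h4
  exact h4.trans (classInner_zero_left _)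

theorem rho_supp {G : Type u} [Group G] [Finite G] {U : Set (IrrCharacter G)} (hs : IsPSolvable p G)
    [Fintype (pPrimeCore p G)] {θ : pPrimeCore p G → ℂ} (hθ : IsIrrCharacter _ θ) (hinv : ∀ g : G, cjf g θ = θ)
    (hU : ∀ χ ∈ U, classInner (fun n : pPrimeCore p G => (χ : G → ℂ) n) θ ≠ 0)
    (h : ∀ g, p ∣ orderOf g → rho U g = 0) {g : G} (hg : rho U g ≠ 0) : g ∈ pPrimeCore p G := by
  classical
  obtain ⟨Γ, _, _, π, ι, η, hc, hz⟩ := exists_cover' hθ hinv
  have := hc.normal
  have hq := QuotientGroup.mk'_surjective ι.range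
  have h1 : ∀ χ : U, ∃ β : IrrCharacter (Γ ⧸ ι.range), ∀ x : Γ, (χ.1 : G → ℂ) (π x) = β.1 (x : Γ ⧸ ι.range) * η x :=
      fun χ => by
    obtain ⟨β, a, b, c⟩ := hc.exists_factor hθ χ.1.2 (hU χ χ.2)
    obtain ⟨γ, d⟩ := exists_infl_eq _ hq (ψ := ⟨β, a⟩) (by rwa [QuotientGroup.ker_mk'])
    exact ⟨γ, fun x => (congrFun c x).trans (congrArg (· * η x) (congrArg (·.1 x) d).symm)⟩
  choose β hβ using h1
  have h1 : Function.Injective β := fun χ ψ a => Subtype.ext (Subtype.ext (funext fun x => by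
    obtain ⟨y, rfl⟩ := hc.surj x
    rw [hβ, hβ, a]))
  have h2 : ∀ x : Γ, rho U (π x) = η 1 * rho (Set.range β) x * η x := fun x => by
    simp only [rho, Finset.sum_apply, Pi.smul_apply, smul_eq_mul, ite_mul, zero_mul]
    rw [← Finset.sum_filter, ← Finset.sum_filter, Finset.sum_subtype (p := (· ∈ U)) _ (by simp),
      show Finset.univ.filter (· ∈ Set.range β) = Finset.univ.image β by ext; simp,
      Finset.sum_image h1.injOn, Finset.mul_sum, Finset.sum_mul]
    refine Finset.sum_congr rfl fun χ _ => ?_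
    rw [← map_one π, hβ, hβ, QuotientGroup.mk_one]
    ring
  have h3 : ¬ p ∣ charDegree θ * Nat.card (pPrimeCore p G) := fun a => H1.not_dvd_card_pPrimeCore p G
    ((hp.out.dvd_mul.1 a).elim (·.trans hθ.degree_dvd_card) id)
  have h4 : η 1 ≠ 0 := hc.apply_one ▸ hθ.apply_one_ne_zero
  have h5 : ∀ x, p ∣ orderOf x → rho (Set.range β) x = 0 := fun x a => by
    have := eq_zero_of_mul hc.isChar (hc.irr_res hθ) (rho_class.sub (isClassFunction_reg (p := p) rho_class))
      (f := rho (Set.range β) - reg p (rho (Set.range β))) fun y => by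
        by_cases b : p ∣ orderOf (y : Γ ⧸ ι.range)
        · rw [Pi.sub_apply, reg_of_dvd _ b, sub_zero]
          refine (mul_eq_zero.1 ((mul_assoc _ _ _).symm.trans ((h2 y).symm.trans (h _ ?_)))).resolve_left h4
          have c := orderOf_dvd_of_pow_eq_one ((pow_mul _ _ _).trans
            (hz (y ^ orderOf (π y)) (by rw [MonoidHom.mem_ker, map_pow, pow_orderOf_eq_one])))
          exact (hp.out.dvd_mul.1 ((b.trans (orderOf_map_dvd (QuotientGroup.mk' _) y)).trans c)).resolve_right h3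
        · rw [Pi.sub_apply, reg_of_not_dvd _ b, sub_self, zero_mul]
    simpa [reg_of_dvd _ a] using congrFun this x
  let r := QuotientGroup.map ι.range (pPrimeCore p G) π (by rintro _ ⟨n, rfl⟩; simp [hc.π_ι])
  obtain ⟨P, _, h6, h7⟩ := exists_normal_lift (p := p) r (fun y => by
    obtain ⟨y, rfl⟩ := QuotientGroup.mk_surjective y
    obtain ⟨y, rfl⟩ := hc.surj y
    exact ⟨y, rfl⟩) (fun y hy => by
      obtain ⟨y, rfl⟩ := QuotientGroup.mk_surjective y
      obtain ⟨n, z, a, rfl⟩ := hc.exists_of_mem ((QuotientGroup.eq_one_iff _).1 hy)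
      rw [QuotientGroup.mk_mul, (QuotientGroup.eq_one_iff _).2 (MonoidHom.mem_range.2 ⟨n, rfl⟩), one_mul]
      exact mem_center_iff.2 fun w => by
        obtain ⟨w, rfl⟩ := QuotientGroup.mk_surjective w
        rw [← QuotientGroup.mk_mul, ← QuotientGroup.mk_mul, mem_center_iff.1 (hc.central a)])
    (H1.isPGroup_pCore p (G ⧸ pPrimeCore p G))
  obtain ⟨x, rfl⟩ := hc.surj g
  have h8 := ko h5 h6 (g := x) fun a => hg (by rw [h2, a, mul_zero, zero_mul])
  have h9 := L.centralizer_pCore_le_of_isPSolvable (H9.pSolv_map _ (QuotientGroup.mk'_surjective _) hs)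
    (H1.pPrimeCore_quotient_eq_bot _ rfl) (x := r x) fun y hy => by
      obtain ⟨y, a, rfl⟩ := h7 hy
      rw [← map_mul, ← map_mul, h8 y a]
  exact (QuotientGroup.eq_one_iff _).1 (by_contra fun a => reg_map (mt (h _) hg) (QuotientGroup.mk' _)
    ((pElt_of_mem (H1.isPGroup_pCore p _) h9).dvd a))

theorem closed_of_rho {G : Type u} [Group G] [Finite G] (hs : IsPSolvable p G) {U : Set (IrrCharacter G)}
    (h : ∀ g, p ∣ orderOf g → rho U g = 0) : Closed M U := by
  classical
  induction' hn : Nat.card G using Nat.strong_induction_on with n ih generalizing G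
  intro χ hχ ψ hψ
  have := Fintype.ofFinite G
  let N := pPrimeCore p G
  have := Fintype.ofFinite N
  have hN : ¬ p ∣ Nat.card N := H1.not_dvd_card_pPrimeCore p G
  obtain ⟨θ, hθ⟩ := exists_under χ N
  have hb := isPBlock_singleton (M := M) hN θ
  let T := inertia θ.1
  have hT : T = stab (iB M N {θ}) := hb.closed.eq_stab' fun g => ⟨fun a _ b _ c => Subtype.ext
    ((funext c).trans (by rw [show _ = θ from b]; exact a)), fun a => congrArg Subtype.val (a θ rfl ⟨_, θ.2.cjf g⟩ fun _ => rfl)⟩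
  by_cases h1 : T = ⊤
  · have hinv := inertia_eq_top_iff.1 h1
    let W : Set (IrrCharacter G) := {ξ | classInner (fun n : N => (ξ : G → ℂ) n) θ ≠ 0}
    have hW : Closed M W := fun _ a _ b => under_of_lam_eq hN b a
    have h2 := fun g => rho_supp hs θ.2 hinv (U := U ∩ W) (fun _ a => a.2) (g := g) fun g a => by
      rw [← blockPart_rho]; exact hW.blockPart_sing h a
    obtain ⟨a, ha, h3⟩ := χ.2.exists_res_eq_smul θ.2 hinv hθ
    obtain ⟨b, hb, h4⟩ := ψ.2.exists_res_eq_smul θ.2 hinv (hW χ hθ ψ hψ)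
    have h5 : (b : ℂ) * classInner χ.1 (rho (U ∩ W)) = a * classInner ψ.1 (rho (U ∩ W)) := by
      simp only [classInner_def, Finset.mul_sum]
      refine Finset.sum_congr rfl fun g _ => ?_
      by_cases c : rho (U ∩ W) g = 0
      · simp [c]
      rw [show χ.1 g = _ from congrFun h3 ⟨g, h2 g c⟩, show ψ.1 g = _ from congrFun h4 ⟨g, h2 g c⟩]
      simp only [Pi.smul_apply, smul_eq_mul]
      ring
    by_contra c
    rw [← conj_classInner, ← conj_classInner _ ψ.1, inner_rho, inner_rho, if_pos ⟨hχ, hθ⟩, if_neg fun d => c d.1] at h5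
    simp [hb.ne', χ.2.apply_one_ne_zero] at h5
  have := Fintype.ofFinite T
  have hNT : N ≤ T := hT ▸ IsPBlock.le_stab hb
  have hB := isPBlock_blockOf (M := M) χ
  obtain ⟨B', h2, h3⟩ := fr_surj hb hT hNT hB ((covers_iff hB hb).1 ⟨χ, self_mem_blockOf χ, θ, rfl, hθ⟩)
  obtain ⟨χ', a, ha⟩ := fr_exists hb hT hNT h3 h2 (self_mem_blockOf χ)
  obtain ⟨ψ', b, hb'⟩ := fr_exists hb hT hNT h3 h2 (hB.closed χ (self_mem_blockOf χ) ψ hψ)
  let U' : Set (IrrCharacter T) := {ξ | ξ ∈ B' ∧ ∃ ζ ∈ U, (ζ : G → ℂ) = indFun T (ξ : T → ℂ)}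
  have h4 : (T.index : ℂ) • rho U' = blockPart B' fun t : T => rho U t := by
    refine (rho_class.smul _).ext_inner (isClassFunction_blockPart _ _) fun ξ hξ => ?_
    rw [classInner_smul_left, inner_rho ⟨ξ, hξ⟩, classInner_blockPart B' _ ⟨ξ, hξ⟩]
    by_cases c : (⟨ξ, hξ⟩ : IrrCharacter T) ∈ B'
    · rw [if_pos c, ← classInner_indFun_right _ rho_class, inner_rho ⟨_, fr_ind_irr hb hT hNT h2.1 h3 c⟩]
      split_ifs with d e e
      · exact (indFun_one _ _).symm
      · obtain ⟨-, ζ, d, f⟩ := d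
        exact (e (Set.mem_of_eq_of_mem (Subtype.ext f.symm) d)).elim
      · exact (d ⟨c, _, e, rfl⟩).elim
      · simp
    · rw [if_neg c, if_neg fun d => c d.1, mul_zero]
  obtain ⟨-, ζ, c, d⟩ := ih _ (hn ▸ (card_le_card_group T).lt_of_ne (mt (eq_top_of_card_eq T) h1)) (H9.pSolv_sub T hs) (U := U') (fun t c => by
    have := congrFun h4 t
    rw [h2.1.closed.blockPart_sing (fun t c => h t (by rwa [orderOf_coe])) c, Pi.smul_apply, smul_eq_mul] at this
    exact (mul_eq_zero.1 this).resolve_left (Nat.cast_ne_zero.2 index_ne_zero_of_finite)) rfl χ' ⟨a, χ, hχ, ha⟩ ψ'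
      ((h2.1.mem_iff a).1 b)
  rwa [show ψ = ζ from Subtype.ext (hb'.trans d.symm)]

end Cfsg.Agent.B
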