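import Cfsg.Agent.B.Cov3

/-!
# Normal `π'`-subgroups in kernels of blocks along Brauer pairs.
-/

set_option autoImplicit false
set_option linter.unusedSectionVars false

namespace Cfsg.Agent.B

open MonoidAlgebra Subgroup Cfsg.Agent.H3 Cfsg.Agent.H2
open scoped ComplexConjugate

variable {p : ℕ} [hp : Fact p.Prime] {M : Ideal AlgInt} [hM : PMod p M]
variable {G : Type*} [Group G] [Finite G]

/-- every normal `ρ`-subgroup of `K` acts trivially on `a` -/
def KerPi {k : Type*} [CommRing k] (ρ : Set ℕ) (K : Subgroup G) (a : MonoidAlgebra k G) : Prop :=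
  ∀ L ≤ K, K ≤ normalizer (L : Set G) → (∀ q : ℕ, q.Prime → q ∣ Nat.card L → q ∈ ρ) → KerA L a

variable {ρ : Set ℕ} {H K P Q R D : Subgroup G} {a b e f : MonoidAlgebra (F M) G}

theorem KerPi.conjA (h : KerPi ρ K a) (x : G) : KerPi ρ (cj x K) (cA x a) := by
  intro L h1 h2 h3
  rw [← cj_cj_inv x L]
  refine (h _ ?_ ?_ (by rwa [card_cj])).conjA x
  · have := cj_mono x⁻¹ h1
    rwa [cj_inv_cj] at this
  · have := cj_mono x⁻¹ h2
    rwa [cj_inv_cj, cj_normalizer] at this

theorem KerPi.of_br (hρ : p ∉ ρ) (ha : IsBI K a) (hR : IsPGroup p R)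
    (hn : R ≤ normalizer (K : Set G)) (hf : a ∈ fix (F M) R) (h1 : Br R a * e = e) (he : e ≠ 0)
    (h : KerPi ρ (CH K R) e) : KerPi ρ K a := by
  intro L h2 h3 h4
  have h5 := H1.le_map_piCore h2 h3 h4
  have h6 := H1.normalizer_le_normalizer_map_piCore ρ K
  have h7 := H1.pi_map_piCore ρ K
  have h8 : (piCore ρ K).map K.subtype ≤ K := map_subtype_le _
  refine KerA.mono (ha.kerA_of_br h8 (le_normalizer.trans h6) (fun h => hρ (h7 p hp.out h)) hR
    (hn.trans h6) hf h1 he (h _ (inf_le_inf_right _ h8) ?_ fun q hq h9 => h7 q hq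
      (h9.trans (card_dvd_of_le inf_le_left)))) h5
  exact le_normalizer_CH (inf_le_left.trans (le_normalizer.trans h6)) (CH_le_normalizer _ _)

theorem PLe.kerPi (hρ : p ∉ ρ) (h : PLe p H Q f P e) (he : KerPi ρ (CH H P) e) :
    KerPi ρ (CH H Q) f := by
  refine h.ind (C := fun Q f => KerPi ρ (CH H Q) f) he fun Q f R g h1 _ h2 => ?_
  refine KerPi.of_br hρ h1.l.bi h1.r.pgrp (le_normalizer_CH (h1.r.le.trans le_normalizer) h1.nm)
    h1.fx h1.br h1.r.bi.ne ?_
  rwa [CH_CH, sup_eq_right.2 h1.le]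

theorem MP.kerPi_of_pair (hρ : p ∉ ρ) (h : MP p H b P e) (he : KerPi ρ (CH H P) e)
    (hf : BP p H Q f) (hbf : Br Q b * f = f) : KerPi ρ (CH H Q) f := by
  obtain ⟨x, hx, h1⟩ := h.exists_conj_le hf hbf
  have := (h1.kerPi hρ he).conjA x⁻¹
  rwa [cj_CH, cj_inv_cj, cA_inv_cA, cj_eq_of_mem (H.inv_mem hx)] at this

theorem kerPi_iff {B : Set (IrrCharacter K)} (hB : IsPBlock M B) (hρ : p ∉ ρ) :
    KerPi ρ K (iB M K B) ↔ ∀ n : K, n ∈ piCore ρ K → n ∈ blockKer B := by
  constructor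
  · intro h n hn θ hθ
    have h6 := H1.normalizer_le_normalizer_map_piCore ρ K
    have h7 := H1.pi_map_piCore ρ K
    exact IsPBlock.apply_of_kerA (map_subtype_le _) (le_normalizer.trans h6)
      (fun h => hρ (h7 p hp.out h)) hB (h _ (map_subtype_le _) (le_normalizer.trans h6) h7) hθ
      ⟨n, hn, rfl⟩
  · intro h L h1 h2 h3 l hl
    obtain ⟨n, hn, rfl⟩ := H1.le_map_piCore h1 h2 h3 hl
    exact of_mul_iB (h n hn)

theorem exists_mp_kerPi {B : Set (IrrCharacter G)} (hD : IsDefectGroup p M B D)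
    {B₁ : Set (IrrCharacter (normalizer (D : Set G)))} (hB₁ : IsInducedBlock M _ B₁ B)
    (hρ : p ∉ ρ) (h : ∀ n, n ∈ piCore ρ (normalizer (D : Set G)) → n ∈ blockKer B₁) :
    ∃ e, MP p ⊤ (eB M B) D e ∧ KerPi ρ (CH ⊤ D) e := by
  have hB := hB₁.2.1
  have hD' := hB.isDefectGroup_iff_top.1 hD
  obtain ⟨e, he⟩ := hD'.exists_mp hB.isBI_top
  refine ⟨e, he, fun L h1 h2 h3 => ?_⟩
  rw [← kerPi_iff hB₁.1 hρ] at h
  have h4 := (isInducedBlock_iff_br hD'.pgrp le_normalizer (centralizer_le_normalizer _) le_rfl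
    hB₁.1 hB).1 hB₁
  have h5 := hD'.isBI_br hB.isBI_top
  rw [top_inf_eq] at h5
  have h6 := h5.eq_of_mul hB₁.1.isBI (by rw [h4]; exact hB₁.1.isBI.ne)
  rw [CH_top] at h1 h2
  have h7 := H1.normalizer_le_normalizer_map_piCore ρ (centralizer (D : Set G))
  exact ((h _ ((map_subtype_le _).trans (centralizer_le_normalizer _))
    ((normalizer_le_nc D).trans h7) (H1.pi_map_piCore ρ _)).mono
      (H1.le_map_piCore h1 h2 h3)).of_mul (h6 ▸ he.br)

theorem PLe.of_mul_up (h : PLe p H Q f P e) {l : G} (hl : l ∈ centralizer (P : Set G))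
    (h1 : of (F M) G l * f = f) : of (F M) G l * e = e := by
  refine h.ind (C := fun Q f => of (F M) G l * f = f → of (F M) G l * e = e) id
    (fun Q f R g h2 h3 h4 h5 => h4 ?_) h1
  have h6 : KerA (zpowers l) f := by
    rintro _ ⟨n, rfl⟩
    let S : Subgroup G :=
      { carrier := {x | of (F M) G x * f = f}
        one_mem' := by simp [← MonoidAlgebra.one_def]
        mul_mem' := fun {x y} hx hy => by
          change _ = _ at hx hy ⊢
          rw [map_mul, mul_assoc, hy, hx]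
        inv_mem' := fun {x} hx => by
          change _ = _ at hx ⊢
          conv_lhs => rw [← hx, ← mul_assoc, of_inv_mul_of, one_mul] }
    exact S.zpow_mem h5 n
  exact (h6.br (zpowers_le_of_mem (centralizer_anti h3.le hl))).of_mul h2.br l (mem_zpowers l)

end Cfsg.Agent.B
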