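import Cfsg.Agent.B.L7

/-! Subgroups of the simple group of order 168. -/

set_option autoImplicit false
set_option maxRecDepth 100000

namespace Cfsg.Agent.B

open Subgroup

namespace L7

def sub (t : ℕ) (h : t.testBit 0 = true ∧ ∀ a : L7, t.testBit a.val = true → ∀ b : L7, t.testBit b.val = true →
    t.testBit (a * b⁻¹).val = true) : Subgroup L7 :=
  Subgroup.ofDiv {a | t.testBit a.val = true} ⟨1, h.1⟩ fun a ha b hb => h.2 a ha b hb

instance (t : ℕ) (h) : DecidablePred (· ∈ sub t h) := fun a => inferInstanceAs (Decidable (t.testBit a.val = true))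

abbrev T0 := sub 0xff (by decide +kernel)
abbrev U1 := sub 0xf (by decide +kernel)
abbrev U2 := sub 0x33 (by decide +kernel)
abbrev K1 := sub 0xff0000ff0000ff (by decide +kernel)
abbrev K2 := sub 0xffffff (by decide +kernel)
abbrev P3 := sub 0x1000010000001 (by decide +kernel)
abbrev N3 := sub 0x11000011000011 (by decide +kernel)
abbrev P7 := sub 0x10000800000000001000800080000000200000001 (by decide +kernel)
abbrev N7 := sub 0x14004820080000121042800180004400280010401 (by decide +kernel)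

theorem cards : Nat.card T0 = 8 ∧ Nat.card U1 = 4 ∧ Nat.card U2 = 4 ∧ Nat.card K1 = 24 ∧ Nat.card K2 = 24 ∧ Nat.card P3 = 3 ∧
    Nat.card N3 = 6 ∧ Nat.card P7 = 7 ∧ Nat.card N7 = 21 := by
  simp only [Nat.card_eq_fintype_card]; decide +kernel

theorem nrm {H K : Subgroup L7} (h : ∀ g, (∀ n, n ∈ H ↔ g * n * g⁻¹ ∈ H) ↔ g ∈ K) : normalizer (H : Set L7) = K := Subgroup.ext h
theorem nT0 : normalizer (T0 : Set L7) = T0 := nrm (by decide +kernel)
theorem nU1 : normalizer (U1 : Set L7) = K1 := nrm (by decide +kernel)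
theorem nU2 : normalizer (U2 : Set L7) = K2 := nrm (by decide +kernel)
theorem nP3 : normalizer (P3 : Set L7) = N3 := nrm (by decide +kernel)
theorem nP7 : normalizer (P7 : Set L7) = N7 := nrm (by decide +kernel)

theorem idx {H : Subgroup L7} {m n : ℕ} (h : Nat.card H = m) (e : m * n = 168) : H.index = n := by
  have := H.card_mul_index
  rw [h, card, ← e] at this
  exact Nat.eq_of_mul_eq_mul_left (h ▸ Nat.card_pos) this

def syl (p : ℕ) [hp : Fact p.Prime] (H : Subgroup L7) {k n : ℕ} (h : Nat.card H = p ^ k) (e : p ^ k * n = 168) (f : ¬ p ∣ n) : Sylow p L7 :=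
  (IsPGroup.of_card h).toSylow (idx h e ▸ f)

def S2 : Sylow 2 L7 := syl 2 T0 (k := 3) (n := 21) cards.1 rfl (by norm_num)

theorem exT {G : Type*} [Group G] [Finite G] [IsSimpleGroup G] (h : Nat.card G = 168) (T : Sylow 2 G) :
    ∃ e : L7 ≃* G, T0.map e.toMonoidHom = T := by
  obtain ⟨e⟩ := ex h
  obtain ⟨g, rfl⟩ := MulAction.exists_smul_eq G (S2.mapSurjective (f := e.toMonoidHom) e.surjective) T
  exact ⟨e.trans (MulAut.conj g), (map_map _ (MulAut.conj g).toMonoidHom e.toMonoidHom).symm⟩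

def ph (t : ℕ) (s : Equiv.Perm (Fin 4)) : L7 := mk (t >>> (8 * (16 * (s 0).val + 4 * (s 1).val + (s 2).val)) % 256)

theorem iso (t : ℕ) {K : Subgroup L7} (h1 : ∀ a b, ph t (a * b) = ph t a * ph t b) (h2 : ∀ a, ph t a ∈ K) (h3 : ∀ a, ph t a = 1 → a = 1)
    (h4 : Nat.card K = 24) : Nonempty (K ≃* Equiv.Perm (Fin 4)) :=
  ⟨(MulEquiv.ofBijective ((MonoidHom.mk' _ h1).codRestrict K h2) ((Nat.bijective_iff_injective_and_card _).2
    ⟨(injective_iff_map_eq_one _).2 fun a e => h3 a (congrArg Subtype.val e), by rw [h4, Nat.card_perm, Nat.card_fin]; rfl⟩)).symm⟩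

theorem iso1 : Nonempty (K1 ≃* Equiv.Perm (Fin 4)) :=
  iso 0x1350005001d0031190000003703000000003300001b07001f00001e00061a0000320000000002360000001830001c0004003400000000000000 (by decide +kernel) (by decide +kernel) (by decide +kernel) cards.2.2.2.1
theorem iso2 : Nonempty (K2 ≃* Equiv.Perm (Fin 4)) :=
  iso 0x4090016000b0015070000000c01000000001400000317000f00000e00130600001100000000050d0000000210000a0012000800000000000000 (by decide +kernel) (by decide +kernel) (by decide +kernel) cards.2.2.2.2.1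

theorem kf {U : Subgroup L7} (h : U ≤ T0) : IsKleinFour U ↔ U = U1 ∨ U = U2 := by
  constructor
  · intro a
    have : U ≤ U1 ∨ U ≤ U2 := SubgroupClass.subset_union.1 fun y hy =>
      (by decide +kernel : ∀ y ∈ T0, y * y = 1 → y ∈ U1 ∨ y ∈ U2) y (h hy) (congrArg Subtype.val (IsKleinFour.mul_self (⟨y, hy⟩ : U)))
    exact this.imp (eq_of_le_of_card_ge · (cards.2.1.trans a.1.symm).le) (eq_of_le_of_card_ge · (cards.2.2.1.trans a.1.symm).le)
  have : ∀ U : Subgroup L7, Nat.card U = 4 → (∀ y ∈ U, y ≠ 1 → od y = 2) → IsKleinFour U := fun U a b =>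
    have := Finite.one_lt_card_iff_nontrivial.1 (a ▸ by norm_num : 1 < Nat.card U)
    ⟨a, (Monoid.exponent_eq_prime_iff Nat.prime_two).2 fun g c => by rw [← orderOf_coe, od_eq, b _ g.2 fun e => c (Subtype.ext e)]⟩
  rintro (rfl | rfl)
  exacts [this _ cards.2.1 (by decide +kernel), this _ cards.2.2.1 (by decide +kernel)]

theorem dih : Nonempty (T0 ≃* DihedralGroup 4) := by
  obtain ⟨e⟩ := H2.closure_equiv_dihedral (t := mk 2) (a := mk 6) (n := 4) ((od_eq _).trans (by decide +kernel)) (by decide +kernel)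
    (by decide +kernel) fun h => by
      rw [mem_zpowers_iff_mem_range_orderOf, od_eq] at h
      exact absurd h (by decide +kernel)
  rw [← eq_of_le_of_card_ge ((closure_le T0).2 (Set.insert_subset (by decide +kernel : mk 6 ∈ T0) (Set.singleton_subset_iff.2 (by decide +kernel : mk 2 ∈ T0))))
    (by rw [cards.1, Nat.card_congr e.toEquiv, DihedralGroup.nat_card])]
  exact ⟨e⟩

theorem f7 : ∀ y ∉ N7, (∃ i < 7, ∃ j < 7, od (y * w ^ i * (y * w ^ j)) = 3) ∧ ∃ i < 7, ∃ j < 7, od (y * w ^ i * (y * w ^ j)) = 4 := by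
  decide +kernel

theorem f3 : ∃ c : L7, ∀ y, od y ≠ 7 → od (x * y) ≠ 7 → od (x * x * y * x * y * y) ≠ 7 → od (x * y * x * y * y * y) ≠ 7 →
    y ∈ K1 ∨ c⁻¹ * y * c ∈ K2 := ⟨mk 72, by decide +kernel⟩

theorem f2 : ∀ y : L7, od y ≠ 7 → od y ≠ 3 → y ^ 2 ^ 2 = 1 := by decide +kernel

theorem T0_le : T0 ≤ K1 := (by decide +kernel : ∀ y ∈ T0, y ∈ K1)

attribute [local irreducible] mk mN sub od

theorem cls {H : Subgroup L7} (h : H ≠ ⊤) : ∃ K, (K = K1 ∨ K = K2 ∨ K = N7) ∧ ∃ g, H ≤ K.map (MulAut.conj g).toMonoidHom := by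
  have wl : ∀ (H K : Subgroup L7) (g : L7), H.comap (MulAut.conj g).toMonoidHom ≤ K → H ≤ K.map (MulAut.conj g).toMonoidHom :=
    fun H K g a => (map_comap_eq_self_of_surjective (MulAut.conj g).surjective H).ge.trans (map_mono a)
  have mc : ∀ g y : L7, y ∈ H.comap (MulAut.conj g).toMonoidHom ↔ g * y * g⁻¹ ∈ H := fun _ _ => Iff.rfl
  have oc : ∀ g y : L7, od (g * y * g⁻¹) = od y := fun g y => by rw [← od_eq, ← od_eq]; exact (MulAut.conj g).orderOf_eq y
  have dv : ∀ y ∈ H, od y ∣ Nat.card H := fun y hy => by rw [← od_eq]; exact H.orderOf_dvd_natCard hy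
  by_cases h7 : ∃ a ∈ H, od a = 7
  · obtain ⟨a, ha, b⟩ := h7
    obtain ⟨g, c⟩ := cj7 a b
    refine ⟨N7, .inr (.inr rfl), g, wl _ _ _ fun y hy => by_contra fun d => h ?_⟩
    have hw : w ∈ H.comap (MulAut.conj g).toMonoidHom := by
      rcases c with c | c
      · rwa [mc, c]
      rwa [← inv_mem_iff, mc, c]
    have e : ∀ o, (∃ i < 7, ∃ j < 7, od (y * w ^ i * (y * w ^ j)) = o) → o ∣ Nat.card H := fun o ⟨i, _, j, _, e⟩ => by
      rw [← e, ← oc g]
      exact dv _ ((mc _ _).1 (mul_mem (mul_mem hy (pow_mem hw i)) (mul_mem hy (pow_mem hw j))))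
    have f := f7 y d
    have f' := dv a ha
    rw [b] at f'
    obtain ⟨m, hm⟩ := Nat.Coprime.mul_dvd_of_dvd_of_dvd (by norm_num) (Nat.Coprime.mul_dvd_of_dvd_of_dvd (by norm_num) (e _ f.1) (e _ f.2)) f'
    have i := H.card_mul_index
    rw [card, hm, mul_assoc] at i
    have j : m * H.index = 2 := by omega
    rcases (Nat.dvd_prime Nat.prime_two).1 (Dvd.intro_left _ j) with k | k
    · exact index_eq_one.1 k
    refine ((normal_of_index_eq_two k).eq_bot_or_eq_top).resolve_left fun l => ?_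
    rw [l, index_bot, card] at k
    omega
  by_cases h3 : ∃ a ∈ H, od a = 3
  · obtain ⟨a, ha, b⟩ := h3
    obtain ⟨g, c⟩ := cj3 a b
    obtain ⟨k, hk⟩ := f3
    have hx : x ∈ H.comap (MulAut.conj g).toMonoidHom := by rwa [mc, c]
    have e : ∀ y ∈ H.comap (MulAut.conj g).toMonoidHom, od y ≠ 7 := fun y hy e => h7 ⟨_, (mc _ _).1 hy, (oc _ _).trans e⟩
    have : H.comap (MulAut.conj g).toMonoidHom ≤ K1 ∨ H.comap (MulAut.conj g).toMonoidHom ≤ K2.map (MulAut.conj k).toMonoidHom :=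
      SubgroupClass.subset_union.1 fun y hy => (hk y (e y hy) (e _ (mul_mem hx hy))
        (e _ (mul_mem (mul_mem (mul_mem (mul_mem (mul_mem hx hx) hy) hx) hy) hy))
        (e _ (mul_mem (mul_mem (mul_mem (mul_mem (mul_mem hx hy) hx) hy) hy) hy))).imp_right fun d => ⟨_, d, by simp [mul_assoc]⟩
    rcases this with d | d
    · exact ⟨K1, .inl rfl, g, wl _ _ _ d⟩
    refine ⟨K2, .inr (.inl rfl), g * k, (wl _ _ _ d).trans_eq ?_⟩
    rw [map_map, map_mul]; rfl
  obtain ⟨Q, hQ⟩ := IsPGroup.exists_le_sylow (p := 2) (P := H) fun y => ⟨2, Subtype.ext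
    (f2 y (fun e => h7 ⟨_, y.2, e⟩) fun e => h3 ⟨_, y.2, e⟩)⟩
  obtain ⟨g, rfl⟩ := MulAction.exists_smul_eq L7 S2 Q
  exact ⟨K1, .inl rfl, g, hQ.trans (map_mono T0_le)⟩

end L7

end Cfsg.Agent.B
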