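import Cfsg.Prelude.Def_LocalEven
import Cfsg.Agent.H4.Linear

/-! Coordinates for a natural `SL₂(F)`-module with a given Sylow subgroup. -/

set_option autoImplicit false
open Cfsg

namespace Cfsg.Agent.B

open Subgroup Matrix
open scoped MatrixGroups commutatorElement

variable {G : Type*} [Group G] {F : Type*} [Field F] {V L T : Subgroup G} {ψ : F → F → G} {ρ : L ≃* SL(2, F)}

/-- The upper unitriangular subgroup. -/
def natU (F : Type*) [Field F] : Subgroup SL(2, F) where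
  carrier := {A | A 0 0 = 1 ∧ A 1 0 = 0 ∧ A 1 1 = 1}
  one_mem' := by simp
  mul_mem' := fun {A B} a b => by simp [Matrix.mul_apply, Fin.sum_univ_two, a.1, a.2.1, a.2.2, b.1, b.2.1, b.2.2]
  inv_mem' := fun {A} a => by simp [SpecialLinearGroup.coe_inv, adjugate_fin_two, a.1, a.2.1, a.2.2]

theorem card_natU : Nat.card (natU F) = Nat.card F :=
  Nat.card_congr ⟨fun A => A.1 0 1, fun t => ⟨⟨!![1, t; 0, 1], by simp⟩, rfl, rfl, rfl⟩, fun A => by
    ext i j; fin_cases i <;> fin_cases j <;> simp [A.2.1, A.2.2.1, A.2.2.2], fun _ => rfl⟩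

structure NatC (V L T : Subgroup G) (ψ : F → F → G) (ρ : L ≃* SL(2, F)) : Prop where
  mul : ∀ a b c d, ψ a b * ψ c d = ψ (a + c) (b + d)
  inj : ∀ {a b c d}, ψ a b = ψ c d → a = c ∧ b = d
  mem : ∀ x, x ∈ V ↔ ∃ a b, ψ a b = x
  act : ∀ (l : L) a b, l * ψ a b * (l : G)⁻¹ = ψ (ρ l 0 0 * a + ρ l 0 1 * b) (ρ l 1 0 * a + ρ l 1 1 * b)
  syl : ∀ x, x ∈ T ↔ ∃ l : L, l = x ∧ ρ l ∈ natU F

theorem exists_natC [Finite G] {p : ℕ} [hp : Fact p.Prime] [Fintype F] {n : ℕ} (hF : Fintype.card F = p ^ n)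
    (h : IsNaturalSL2Module F V L) (hf : L ⊓ centralizer (V : Set G) = ⊥) (S : Sylow p L) :
    ∃ (ψ : F → F → G) (ρ : L ≃* SL(2, F)), NatC V L (S.1.map L.subtype) ψ ρ := by
  obtain ⟨-, ρ, ψ, h1, h2, h3⟩ := h
  let e := MulEquiv.ofBijective ρ ⟨(MonoidHom.ker_eq_bot_iff ρ).1 (h2.trans (eq_bot_iff.2 fun x a => Subtype.ext (hf.le ⟨x.2, a⟩))), h1⟩
  have c := card_natU (F := F)
  rw [Nat.card_eq_fintype_card (α := F)] at c
  have i := (natU F).card_mul_index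
  rw [H4.card_SL_two, c] at i
  have n0 : n ≠ 0 := fun a => Fintype.one_lt_card.ne' (hF.trans (by rw [a, pow_zero]))
  obtain ⟨g, hg⟩ := MulAction.exists_smul_eq SL(2, F) ((IsPGroup.of_card (c.trans hF)).toSylow (by
    rw [Nat.eq_of_mul_eq_mul_left Fintype.card_pos i, Nat.dvd_sub_iff_right (Nat.one_le_pow _ _ Fintype.card_pos)
      (hF ▸ dvd_pow (dvd_pow_self p n0) two_ne_zero)]
    exact hp.out.not_dvd_one)) (S.mapSurjective h1)
  refine ⟨fun a b => (ψ.symm (g.1 *ᵥ ![a, b])).toMul, e.trans (MulAut.conj g⁻¹), fun a b c d => ?_, fun {a b c d} h => ?_,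
    fun x => ⟨fun a => ?_, ?_⟩, fun l a b => ?_, fun x => ?_⟩
  · rw [← Subgroup.coe_mul, ← toMul_add, ← map_add, ← mulVec_add]; simp
  · have := g.toLin'.injective (ψ.symm.injective (Additive.toMul.injective (Subtype.ext h)))
    exact ⟨congrFun this 0, congrFun this 1⟩
  · obtain ⟨v, hv⟩ := g.toLin'.surjective (ψ (Additive.ofMul ⟨x, a⟩))
    refine ⟨v 0, v 1, ?_⟩
    rw [show ![v 0, v 1] = v by ext i; fin_cases i <;> rfl, show g.1 *ᵥ v = _ from hv]; simp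
  · rintro ⟨a, b, rfl⟩; exact SetLike.coe_mem _
  · obtain ⟨w, a, b⟩ := h3 l (ψ.symm (g.1 *ᵥ ![a, b])).toMul
    rw [← a, ← toMul_ofMul w, ← ψ.symm_apply_apply (Additive.ofMul w), b, ofMul_toMul, ψ.apply_symm_apply, mulVec_mulVec]
    congr 3
    rw [show (ρ l).1 * g.1 = g.1 * ((e.trans (MulAut.conj g⁻¹)) l).1 from
      congrArg Subtype.val (show ρ l * g = g * (g⁻¹ * ρ l * g⁻¹⁻¹) by group), ← mulVec_mulVec]
    congr 1
    ext i; fin_cases i <;> simp [mulVec, dotProduct, Fin.sum_univ_two]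
  refine exists_congr fun l => and_comm.trans (and_congr_right fun _ => ?_)
  refine (mem_map_iff_mem (f := ρ) e.injective).symm.trans ?_
  rw [show S.1.map ρ = _ from congrArg Sylow.toSubgroup hg.symm]
  exact mem_pointwise_smul_iff_inv_smul_mem.trans (by simp; rfl)

namespace NatC
variable (h : NatC V L T ψ ρ)
include h

theorem one : ψ 0 0 = 1 := by simpa using h.mul 0 0 0 0

theorem inv (a b : F) : (ψ a b)⁻¹ = ψ (-a) (-b) := inv_eq_of_mul_eq_one_right (by simp [h.mul, h.one])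

theorem ex (t : F) : ∃ l : L, l.1 ∈ T ∧ ρ l ∈ natU F ∧ ρ l 0 1 = t := by
  obtain ⟨l, a⟩ := ρ.surjective ⟨!![1, t; 0, 1], by simp⟩
  have : ρ l ∈ natU F := a ▸ ⟨rfl, rfl, rfl⟩
  exact ⟨l, (h.syl _).2 ⟨l, rfl, this⟩, this, by rw [a]; rfl⟩

theorem comm {l : L} (hl : ρ l ∈ natU F) (a b : F) : ⁅ψ a b, l.1⁆ = ψ (-(ρ l 0 1 * b)) 0 := by
  rw [commutatorElement_def, mul_assoc, mul_assoc, ← mul_assoc l.1, h.inv, h.act, h.mul, hl.1, hl.2.1, hl.2.2]
  congr 1 <;> ring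

theorem cent1 {l : L} (hl : ρ l ∈ natU F) {a b : F} : ψ a b ∈ centralizer {l.1} ↔ ρ l 0 1 * b = 0 := by
  rw [mem_centralizer_singleton_iff, ← commutatorElement_eq_one_iff_mul_comm, h.comm hl, ← h.one]
  exact ⟨fun e => neg_eq_zero.1 (h.inj e).1, fun e => by rw [e, neg_zero]⟩

theorem cent {x : G} : x ∈ V ⊓ centralizer (T : Set G) ↔ ∃ a, ψ a 0 = x := by
  constructor
  · rintro ⟨a, b⟩
    obtain ⟨c, d, rfl⟩ := (h.mem x).1 a
    obtain ⟨l, e, f, g⟩ := h.ex 1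
    have := (h.cent1 f).1 (mem_centralizer_singleton_iff.2 (b _ e).symm)
    rw [g, one_mul] at this
    exact ⟨c, this ▸ rfl⟩
  rintro ⟨a, rfl⟩
  refine ⟨(h.mem _).2 ⟨_, _, rfl⟩, fun y hy => ?_⟩
  obtain ⟨l, rfl, b⟩ := (h.syl y).1 hy
  exact (mem_centralizer_singleton_iff.1 ((h.cent1 b).2 (mul_zero _))).symm

theorem ne {l : L} (hl : ρ l ∈ natU F) (h1 : l.1 ≠ 1) : ρ l 0 1 ≠ 0 := fun e => h1 (congrArg Subtype.val (ρ.injective (a₂ := 1) (by
  ext i j; fin_cases i <;> fin_cases j <;> simp [hl.1, hl.2.1, hl.2.2, e])))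

theorem norm {l : L} (hl : ρ l 1 0 = 0) [Finite G] : l.1 ∈ normalizer (T : Set G) := mem_normalizer_fintype fun x hx => by
  obtain ⟨u, rfl, a⟩ := (h.syl x).1 hx
  refine (h.syl _).2 ⟨l * u * l⁻¹, rfl, ?_⟩
  have := (ρ l).det_coe
  rw [det_fin_two, hl, mul_zero, sub_zero] at this
  rw [map_mul, map_mul, map_inv]
  refine ⟨?_, ?_, ?_⟩ <;> change ((ρ l).1 * (ρ u).1 * adjugate (ρ l).1) _ _ = _ <;> rw [adjugate_fin_two] <;>
    simp [Matrix.mul_apply, Fin.sum_univ_two, a.1, a.2.1, a.2.2, hl, this, mul_comm]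

theorem diag [Finite G] {c : F} (hc : c ≠ 0) : ∃ l ∈ L ⊓ normalizer (T : Set G), ∀ a b, l * ψ a b * l⁻¹ = ψ (c * a) (c⁻¹ * b) := by
  obtain ⟨l, e⟩ := ρ.surjective ⟨!![c, 0; 0, c⁻¹], by simp [hc]⟩
  exact ⟨l, ⟨l.2, h.norm (by rw [e]; rfl)⟩, fun a b => by rw [h.act, e]; simp⟩

end NatC

end Cfsg.Agent.B
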